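import Mathlib
import Cfsg.Agent.Lib.Helper1.CharFrobThm
import Cfsg.Agent.Lib.Helper1.CharMore
import Cfsg.Agent.Lib.Helper10.Virt

set_option autoImplicit false
set_option linter.unusedSectionVars false

namespace Cfsg.Agent.Lib.Helper14.AbTorus

open scoped ComplexConjugate
open Cfsg.Agent.Lib.Helper1 Cfsg.Agent.Lib.Helper10.Virt

universe u

section cyclic

variable {A : Type u} [Group A] [Finite A]

theorem unit_sq_cases (x : ℂˣ) (h : x ^ 2 = 1) : x = 1 ∨ x = -1 := by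
  have h' : (x : ℂ) * (x : ℂ) = 1 := by
    have := congrArg Units.val h
    rw [pow_two, Units.val_mul, Units.val_one] at this
    exact this
  rcases mul_self_eq_one_iff.mp h' with h1 | h1
  · exact Or.inl (Units.ext h1)
  · exact Or.inr (Units.ext (by rw [h1]; simp))

theorem real_gen {b : A} (hb : ∀ y : A, y ∈ Submonoid.powers b) (lam : A →* ℂˣ)
    (hreal : ∀ a, lam a ^ 2 = 1) (hne : ∃ a, lam a ≠ 1) : lam b = -1 := by
  rcases unit_sq_cases _ (hreal b) with h | h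
  · exfalso
    obtain ⟨a, ha⟩ := hne
    apply ha
    obtain ⟨n, rfl⟩ := hb a
    rw [map_pow, h, one_pow]
  · exact h

theorem real_unique (hcyc : IsCyclic A) (lam₁ lam₂ : A →* ℂˣ)
    (h₁ : ∀ a, lam₁ a ^ 2 = 1) (h₂ : ∀ a, lam₂ a ^ 2 = 1)
    (hn₁ : ∃ a, lam₁ a ≠ 1) (hn₂ : ∃ a, lam₂ a ≠ 1) : lam₁ = lam₂ := by
  obtain ⟨b, hb⟩ := IsCyclic.exists_monoid_generator (α := A)
  ext a
  obtain ⟨n, rfl⟩ := hb a
  rw [map_pow, map_pow, real_gen hb lam₁ h₁ hn₁, real_gen hb lam₂ h₂ hn₂]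

theorem real_pow (hcyc : IsCyclic A) (m : ℕ) (hm : Nat.card A = 2 * m) (lam : A →* ℂˣ)
    (hreal : ∀ a, lam a ^ 2 = 1) (hne : ∃ a, lam a ≠ 1) (a : A) :
    lam a = 1 ↔ a ^ m = 1 := by
  obtain ⟨b, hb⟩ := IsCyclic.exists_monoid_generator (α := A)
  have hord : orderOf b = 2 * m := by
    rw [← hm]
    apply orderOf_eq_card_of_forall_mem_zpowers
    intro y
    obtain ⟨n, rfl⟩ := hb y
    exact Subgroup.npow_mem_zpowers b n
  have hm0 : 0 < m := by
    have : 0 < Nat.card A := Nat.card_pos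
    omega
  obtain ⟨n, rfl⟩ := hb a
  have hne1 : (-1 : ℂˣ) ≠ 1 := by
    intro h
    have := congrArg Units.val h
    norm_num at this
  have e1 : (b ^ n) ^ m = 1 ↔ 2 ∣ n := by
    rw [← pow_mul, ← orderOf_dvd_iff_pow_eq_one, hord, Nat.mul_dvd_mul_iff_right hm0]
  have e2 : lam (b ^ n) = 1 ↔ 2 ∣ n := by
    rw [map_pow, real_gen hb lam hreal hne, neg_one_pow_eq_one_iff_even hne1, even_iff_two_dvd]
  exact e2.trans e1.symm

end cyclic

section xi

variable {A : Type u} [Group A] [Fintype A] [DecidableEq A]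

/-- the auxiliary class function -/
noncomputable def xi (z : A) (s ω : ℂ) (Φ : A → ℂ) : A → ℂ :=
  fun a => (if a = 1 then s else 0) + (if a = z then s * ω else 0) - Φ a

theorem classInner_xi (z : A) (s ω : ℂ) (Φ θ : A → ℂ) :
    Cfsg.classInner (xi z s ω Φ) θ =
      (Nat.card A : ℂ)⁻¹ * (s * conj (θ 1) + s * ω * conj (θ z)) - Cfsg.classInner Φ θ := by
  simp only [Cfsg.classInner, xi, sub_mul, add_mul, ite_mul, zero_mul, Finset.sum_sub_distrib,
    Finset.sum_add_distrib, Finset.sum_ite_eq', Finset.mem_univ, if_true, mul_sub]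

variable (hcomm : ∀ a b : A, a * b = b * a) (z : A) (hz1 : z ≠ 1) (hz2 : z * z = 1)
  (m t : ℕ) (hcard : Nat.card A = 2 * m) (ω : ℂ) (hω : ω = 1 ∨ ω = -1)
  (Φ : A → ℂ) (hΦ : Cfsg.IsCharacter A Φ) (hΦ1 : Φ 1 = (t : ℂ) * ((m : ℂ) - 1))
  (hΦz : Φ z = ω * Φ 1)
  (hS : ∑ a : A, (if a = 1 ∨ a = z then 0 else Φ a * conj (Φ a)) = 2 * (t : ℂ) * ((m : ℂ) - t))
  (hL : ∑ a : A, (if a = 1 ∨ a = z then 0 else Φ a) = (t : ℂ) * (1 + ω))

include hz1 hΦ1 in
theorem xi_one : xi z ((t : ℂ) * m) ω Φ 1 = t := by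
  rw [xi, if_pos rfl, if_neg (Ne.symm hz1), hΦ1]
  ring

include hz1 hΦ1 hΦz in
theorem xi_z : xi z ((t : ℂ) * m) ω Φ z = ω * t := by
  rw [xi, if_neg hz1, if_pos rfl, hΦz, hΦ1]
  ring

theorem xi_other (s : ℂ) (a : A) (h1 : a ≠ 1) (hz : a ≠ z) : xi z s ω Φ a = - Φ a := by
  rw [xi, if_neg h1, if_neg hz]
  ring

include hcomm in
theorem xi_class (s : ℂ) :
    Cfsg.IsClassFunction A (xi z s ω Φ) := by
  intro a h
  have e : h * a * h⁻¹ = a := by rw [hcomm h a, mul_assoc, mul_inv_cancel, mul_one]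
  rw [e]

include hcomm hz2 in
theorem irr_z {θ : A → ℂ} (hθ : Cfsg.IsIrrCharacter A θ) :
    θ 1 = 1 ∧ (θ z = 1 ∨ θ z = -1) := by
  have h1 := irr_degree_one_of_comm hcomm hθ
  refine ⟨h1, ?_⟩
  obtain ⟨lam, hlam⟩ := IsIrrCharacter.exists_monoidHom hθ h1
  have h2 : lam z ^ 2 = 1 := by rw [pow_two, ← map_mul, hz2, map_one]
  rw [hlam]
  rcases unit_sq_cases _ h2 with h | h
  · left; rw [h]; simp
  · right; rw [h]; simp

include hcard in
theorem m_ne : (m : ℂ) ≠ 0 := by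
  have : 0 < Nat.card A := Nat.card_pos
  have hm : m ≠ 0 := by omega
  exact_mod_cast hm

include hcard in
theorem card_cast : (Nat.card A : ℂ) = 2 * (m : ℂ) := by
  rw [hcard]
  push_cast
  ring

include hcomm hz2 hcard hω hΦ in
theorem xi_int {θ : A → ℂ} (hθ : Cfsg.IsIrrCharacter A θ) :
    ∃ n : ℤ, Cfsg.classInner (xi z ((t : ℂ) * m) ω Φ) θ = (n : ℂ) := by
  obtain ⟨k, hk⟩ := IsCharacter.classInner_irr_nat hΦ hθ
  obtain ⟨h1, hz⟩ := irr_z hcomm z hz2 hθ
  have hm := m_ne m hcard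
  rw [classInner_xi, hk, h1, card_cast m hcard]
  rcases hω with rfl | rfl <;> rcases hz with hz | hz
  · refine ⟨(t : ℤ) - k, ?_⟩
    rw [hz]
    push_cast
    simp only [map_one]
    field_simp
    ring
  · refine ⟨- (k : ℤ), ?_⟩
    rw [hz]
    push_cast
    simp only [map_one, map_neg]
    field_simp
    ring
  · refine ⟨- (k : ℤ), ?_⟩
    rw [hz]
    push_cast
    simp only [map_one]
    field_simp
    ring
  · refine ⟨(t : ℤ) - k, ?_⟩
    rw [hz]
    push_cast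
    simp only [map_one, map_neg]
    field_simp
    ring

include hz1 hcard hω hΦ1 hΦz hS in
theorem xi_norm :
    Cfsg.classInner (xi z ((t : ℂ) * m) ω Φ) (xi z ((t : ℂ) * m) ω Φ) = t := by
  have hm := m_ne m hcard
  have hωω : ω * conj ω = 1 := by
    rcases hω with rfl | rfl <;> simp
  have hpt : ∀ a : A, xi z ((t : ℂ) * m) ω Φ a * conj (xi z ((t : ℂ) * m) ω Φ a) =
      (if a = 1 then (t : ℂ) ^ 2 else 0) + (if a = z then (t : ℂ) ^ 2 else 0) +
      (if a = 1 ∨ a = z then 0 else Φ a * conj (Φ a)) := by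
    intro a
    by_cases h1 : a = 1
    · subst h1
      rw [xi_one z hz1 m t ω Φ hΦ1, if_pos rfl, if_neg (Ne.symm hz1), if_pos (Or.inl rfl),
        Complex.conj_natCast]
      ring
    by_cases hz : a = z
    · subst hz
      rw [xi_z a hz1 m t ω Φ hΦ1 hΦz, if_neg h1, if_pos rfl, if_pos (Or.inr rfl), map_mul,
        Complex.conj_natCast]
      linear_combination (t : ℂ) ^ 2 * hωω
    · rw [xi_other z ω Φ _ a h1 hz, if_neg h1, if_neg hz, if_neg (by tauto), map_neg]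
      ring
  rw [Cfsg.classInner, Finset.sum_congr rfl (fun a _ => hpt a), Finset.sum_add_distrib,
    Finset.sum_add_distrib, Finset.sum_ite_eq', Finset.sum_ite_eq', hS, card_cast m hcard]
  simp only [Finset.mem_univ, if_true]
  field_simp
  ring

include hz1 hcard hΦ1 hΦz hL in
theorem xi_triv :
    Cfsg.classInner (xi z ((t : ℂ) * m) ω Φ) (fun _ => (1 : ℂ)) = 0 := by
  have hpt : ∀ a : A, xi z ((t : ℂ) * m) ω Φ a * conj (1 : ℂ) =
      (if a = 1 then (t : ℂ) else 0) + (if a = z then ω * (t : ℂ) else 0) -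
      (if a = 1 ∨ a = z then 0 else Φ a) := by
    intro a
    by_cases h1 : a = 1
    · subst h1
      rw [xi_one z hz1 m t ω Φ hΦ1, if_pos rfl, if_neg (Ne.symm hz1), if_pos (Or.inl rfl), map_one]
      ring
    by_cases hz : a = z
    · subst hz
      rw [xi_z a hz1 m t ω Φ hΦ1 hΦz, if_neg h1, if_pos rfl, if_pos (Or.inr rfl), map_one]
      ring
    · rw [xi_other z ω Φ _ a h1 hz, if_neg h1, if_neg hz, if_neg (by tauto), map_one]
      ring
  rw [Cfsg.classInner, Finset.sum_congr rfl (fun a _ => hpt a), Finset.sum_sub_distrib,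
    Finset.sum_add_distrib, Finset.sum_ite_eq', Finset.sum_ite_eq', hL]
  simp only [Finset.mem_univ, if_true]
  ring

include hz2 in
theorem xi_inv (s : ℂ) (hreal : ∀ a, Φ a⁻¹ = Φ a) (a : A) :
    xi z s ω Φ a⁻¹ = xi z s ω Φ a := by
  have hzi : z⁻¹ = z := inv_eq_of_mul_eq_one_left hz2
  have e1 : (a⁻¹ = 1) = (a = 1) := by rw [inv_eq_one]
  have e2 : (a⁻¹ = z) = (a = z) := by
    apply propext
    constructor
    · intro h
      rw [← hzi, ← h, inv_inv]
    · intro h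
      rw [h, hzi]
  simp only [xi, e1, e2, hreal]

end xi

section main

variable {A : Type u} [Group A] [Fintype A] [DecidableEq A]

/-- degree `m - 1`: the restriction is minus a real character off the central elements -/
theorem torus_one (hcomm : ∀ a b : A, a * b = b * a) (z : A) (hz1 : z ≠ 1) (hz2 : z * z = 1)
    (m : ℕ) (hcard : Nat.card A = 2 * m) (ω : ℂ) (hω : ω = 1 ∨ ω = -1)
    (Φ : A → ℂ) (hΦ : Cfsg.IsCharacter A Φ) (hΦ1 : Φ 1 = (m : ℂ) - 1)
    (hΦz : Φ z = ω * Φ 1)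
    (hS : ∑ a : A, (if a = 1 ∨ a = z then 0 else Φ a * conj (Φ a)) = 2 * ((m : ℂ) - 1))
    (hL : ∑ a : A, (if a = 1 ∨ a = z then 0 else Φ a) = 1 + ω)
    (hreal : ∀ a, Φ a⁻¹ = Φ a) :
    ∃ lam : A →* ℂˣ, (∀ a, lam a ^ 2 = 1) ∧ (∃ a, lam a ≠ 1) ∧
      ∀ a, a ≠ 1 → a ≠ z → Φ a = -((lam a : ℂˣ) : ℂ) := by
  have hΦ1' : Φ 1 = ((1 : ℕ) : ℂ) * ((m : ℂ) - 1) := by rw [hΦ1]; simp
  have hS' : ∑ a : A, (if a = 1 ∨ a = z then 0 else Φ a * conj (Φ a)) =
      2 * ((1 : ℕ) : ℂ) * ((m : ℂ) - (1 : ℕ)) := by rw [hS]; simp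
  have hL' : ∑ a : A, (if a = 1 ∨ a = z then 0 else Φ a) = ((1 : ℕ) : ℂ) * (1 + ω) := by
    rw [hL]; simp
  obtain ⟨Ξ, hΞ⟩ : ∃ Ξ : A → ℂ, Ξ = xi z (((1 : ℕ) : ℂ) * m) ω Φ := ⟨_, rfl⟩
  have h1 : Ξ 1 = 1 := by
    rw [hΞ, xi_one z hz1 m 1 ω Φ hΦ1']; simp
  have hirr : Cfsg.IsIrrCharacter A Ξ := by
    apply isIrr_of_int_norm_one
    · rw [hΞ]; exact xi_class hcomm z ω Φ _
    · intro θ hθ
      rw [hΞ]
      exact xi_int hcomm z hz2 m 1 hcard ω hω Φ hΦ hθ
    · rw [hΞ, xi_norm z hz1 m 1 hcard ω hω Φ hΦ1' hΦz hS']; simp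
    · rw [h1]; simp
  obtain ⟨lam, hlam⟩ := IsIrrCharacter.exists_monoidHom hirr h1
  refine ⟨lam, ?_, ?_, ?_⟩
  · intro a
    have e1 : Ξ a⁻¹ = Ξ a := by rw [hΞ]; exact xi_inv z hz2 ω Φ _ hreal a
    rw [hlam, hlam] at e1
    have e2 : lam a⁻¹ = lam a := Units.ext e1
    rw [map_inv] at e2
    rw [pow_two]
    calc lam a * lam a = (lam a)⁻¹ * lam a := by rw [e2]
      _ = 1 := inv_mul_cancel _
  · by_contra hcon
    push Not at hcon
    have e1 : Ξ = fun _ => (1 : ℂ) := by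
      funext a
      rw [hlam, hcon a]; simp
    have e2 := xi_triv z hz1 m 1 hcard ω Φ hΦ1' hΦz hL'
    rw [← hΞ, e1, classInner_irr_self isIrrCharacter_one] at e2
    exact one_ne_zero e2
  · intro a ha1 haz
    have e1 : Ξ a = - Φ a := by rw [hΞ]; exact xi_other z ω Φ _ a ha1 haz
    rw [← hlam, e1, neg_neg]

/-- degree `2 (m - 1)`: the restriction is minus the sum of a non-real character and its
conjugate off the central elements -/
theorem torus_two (hcomm : ∀ a b : A, a * b = b * a) (hcyc : IsCyclic A) (z : A) (hz1 : z ≠ 1)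
    (hz2 : z * z = 1)
    (m : ℕ) (hcard : Nat.card A = 2 * m) (ω : ℂ) (hω : ω = 1 ∨ ω = -1)
    (Φ : A → ℂ) (hΦ : Cfsg.IsCharacter A Φ) (hΦ1 : Φ 1 = 2 * ((m : ℂ) - 1))
    (hΦz : Φ z = ω * Φ 1)
    (hS : ∑ a : A, (if a = 1 ∨ a = z then 0 else Φ a * conj (Φ a)) = 4 * ((m : ℂ) - 2))
    (hL : ∑ a : A, (if a = 1 ∨ a = z then 0 else Φ a) = 2 * (1 + ω))
    (hreal : ∀ a, Φ a⁻¹ = Φ a) :
    ∃ lam : A →* ℂˣ, (∃ a, lam a ^ 2 ≠ 1) ∧
      ∀ a, a ≠ 1 → a ≠ z → Φ a = -(((lam a : ℂˣ) : ℂ) + (((lam a)⁻¹ : ℂˣ) : ℂ)) := by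
  have hFI : Fintype (Cfsg.IrrCharacter A) := irrFintype
  have hΦ1' : Φ 1 = ((2 : ℕ) : ℂ) * ((m : ℂ) - 1) := by rw [hΦ1]; simp
  have hS' : ∑ a : A, (if a = 1 ∨ a = z then 0 else Φ a * conj (Φ a)) =
      2 * ((2 : ℕ) : ℂ) * ((m : ℂ) - (2 : ℕ)) := by rw [hS]; push_cast; ring
  have hL' : ∑ a : A, (if a = 1 ∨ a = z then 0 else Φ a) = ((2 : ℕ) : ℂ) * (1 + ω) := by
    rw [hL]; simp
  obtain ⟨Ξ, hΞ⟩ : ∃ Ξ : A → ℂ, Ξ = xi z (((2 : ℕ) : ℂ) * m) ω Φ := ⟨_, rfl⟩
  have h1 : Ξ 1 = 2 := by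
    rw [hΞ, xi_one z hz1 m 2 ω Φ hΦ1']; simp
  have hcl : Cfsg.IsClassFunction A Ξ := by rw [hΞ]; exact xi_class hcomm z ω Φ _
  have hint : ∀ χ : Cfsg.IrrCharacter A, ∃ n : ℤ, Cfsg.classInner Ξ (χ : A → ℂ) = (n : ℂ) := by
    intro χ
    rw [hΞ]
    exact xi_int hcomm z hz2 m 2 hcard ω hω Φ hΦ χ.2
  have hnorm : Cfsg.classInner Ξ Ξ = 2 := by
    rw [hΞ, xi_norm z hz1 m 2 hcard ω hω Φ hΦ1' hΦz hS']; simp
  have htriv : Cfsg.classInner Ξ (fun _ => (1 : ℂ)) = 0 := by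
    rw [hΞ]; exact xi_triv z hz1 m 2 hcard ω Φ hΦ1' hΦz hL'
  have hinv : ∀ a, Ξ a⁻¹ = Ξ a := by
    intro a; rw [hΞ]; exact xi_inv z hz2 ω Φ _ hreal a
  choose n hn using hint
  have hexp : Ξ = ∑ χ : Cfsg.IrrCharacter A, (n χ : ℂ) • (χ : A → ℂ) := by
    conv_lhs => rw [classFunction_expansion hcl]
    exact Finset.sum_congr rfl (fun χ _ => by rw [hn χ])
  have h2 := gen_norm_eq n hexp
  rw [hnorm] at h2
  have h3 : ∑ χ : Cfsg.IrrCharacter A, n χ ^ 2 = 2 := by exact_mod_cast h2.symm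
  obtain ⟨i, -, j, -, hij, hci, hcj, hrest⟩ := sq_sum_two Finset.univ n h3
  have hΞ2 : Ξ = (n i : ℂ) • (i : A → ℂ) + (n j : ℂ) • (j : A → ℂ) := by
    conv_lhs => rw [hexp]
    rw [← Finset.add_sum_erase Finset.univ _ (Finset.mem_univ i)]
    congr 1
    apply Finset.sum_eq_single j
    · intro k hk hkj
      rw [hrest k (Finset.mem_univ _) (Finset.ne_of_mem_erase hk) hkj]; simp
    · intro h
      exact absurd (Finset.mem_erase.mpr ⟨fun h => hij h.symm, Finset.mem_univ _⟩) h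
  have hi1 := irr_degree_one_of_comm hcomm i.2
  have hj1 := irr_degree_one_of_comm hcomm j.2
  have hsum : (n i : ℂ) + (n j : ℂ) = 2 := by
    have := congrFun hΞ2 1
    rw [h1] at this
    simp only [Pi.add_apply, Pi.smul_apply, smul_eq_mul, hi1, hj1, mul_one] at this
    exact this.symm
  have hsumZ : n i + n j = 2 := by exact_mod_cast hsum
  have hni : n i = 1 := by rcases hci with h | h <;> rcases hcj with h' | h' <;> omega
  have hnj : n j = 1 := by omega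
  rw [hni, hnj] at hΞ2
  simp only [Int.cast_one, one_smul] at hΞ2
  obtain ⟨li, hli⟩ := IsIrrCharacter.exists_monoidHom i.2 hi1
  obtain ⟨lj, hlj⟩ := IsIrrCharacter.exists_monoidHom j.2 hj1
  have hne : (i : A → ℂ) ≠ (j : A → ℂ) := fun h => hij (Subtype.ext h)
  have hval : ∀ a, Ξ a = ((li a : ℂˣ) : ℂ) + ((lj a : ℂˣ) : ℂ) := by
    intro a
    rw [hΞ2, Pi.add_apply, hli, hlj]
  -- neither is trivial
  have hnt : (i : A → ℂ) ≠ (fun _ => (1 : ℂ)) ∧ (j : A → ℂ) ≠ (fun _ => (1 : ℂ)) := by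
    rw [hΞ2, classInner_add_left, classInner_irr i.2 isIrrCharacter_one,
      classInner_irr j.2 isIrrCharacter_one] at htriv
    constructor
    · intro h
      rw [if_pos h] at htriv
      split_ifs at htriv <;> norm_num at htriv
    · intro h
      rw [if_pos h] at htriv
      split_ifs at htriv <;> norm_num at htriv
  have hnti : ∃ a, li a ≠ 1 := by
    by_contra hcon
    push Not at hcon
    apply hnt.1
    funext a
    rw [hli, hcon a]; simp
  have hntj : ∃ a, lj a ≠ 1 := by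
    by_contra hcon
    push Not at hcon
    apply hnt.2
    funext a
    rw [hlj, hcon a]; simp
  -- the inverse characters
  have hi' : Cfsg.IsIrrCharacter A (fun a => (((li⁻¹) a : ℂˣ) : ℂ)) := isIrrCharacter_of_monoidHom _
  have hj' : Cfsg.IsIrrCharacter A (fun a => (((lj⁻¹) a : ℂˣ) : ℂ)) := isIrrCharacter_of_monoidHom _
  have hsum' : (fun a => (((li⁻¹) a : ℂˣ) : ℂ)) + (fun a => (((lj⁻¹) a : ℂˣ) : ℂ)) =
      (i : A → ℂ) + (j : A → ℂ) := by
    funext a
    have e := hinv a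
    rw [hval, hval, map_inv, map_inv] at e
    rw [Pi.add_apply, Pi.add_apply, hli, hlj]
    exact e
  have hne' : (fun a => (((li⁻¹) a : ℂˣ) : ℂ)) ≠ (fun a => (((lj⁻¹) a : ℂˣ) : ℂ)) := by
    intro h
    apply hne
    funext a
    have e := congrFun h a
    simp only [MonoidHom.inv_apply] at e
    have e2 : (li a)⁻¹ = (lj a)⁻¹ := Units.ext e
    rw [hli, hlj, inv_injective e2]
  have key := congrArg (fun f => Cfsg.classInner f (fun a => (((li⁻¹) a : ℂˣ) : ℂ))) hsum'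
  beta_reduce at key
  rw [classInner_add_left, classInner_add_left, classInner_irr_self hi',
    classInner_irr_ne hj' hi' (Ne.symm hne'), classInner_irr i.2 hi', classInner_irr j.2 hi'] at key
  by_cases hcase : (j : A → ℂ) = (fun a => (((li⁻¹) a : ℂˣ) : ℂ))
  · -- the good case
    have hlj' : ∀ a, lj a = (li a)⁻¹ := by
      intro a
      apply Units.ext
      have e := congrFun hcase a
      rw [hlj] at e
      exact e
    refine ⟨li, ?_, ?_⟩
    · by_contra hcon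
      push Not at hcon
      apply hne
      funext a
      rw [hli, hlj, hlj' a]
      congr 1
      have e := hcon a
      rw [pow_two] at e
      exact (inv_eq_of_mul_eq_one_left e).symm
    · intro a ha1 haz
      have e1 : Ξ a = - Φ a := by rw [hΞ]; exact xi_other z ω Φ _ a ha1 haz
      have e2 := hval a
      rw [hlj' a] at e2
      rw [← e2, e1, neg_neg]
  · -- the real case is impossible
    exfalso
    rw [if_neg hcase] at key
    have hi_real : (i : A → ℂ) = (fun a => (((li⁻¹) a : ℂˣ) : ℂ)) := by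
      by_contra h
      rw [if_neg h] at key
      norm_num at key
    have hj_real : (j : A → ℂ) = (fun a => (((lj⁻¹) a : ℂˣ) : ℂ)) := by
      have e : (fun a => (((li⁻¹) a : ℂˣ) : ℂ)) + (fun a => (((lj⁻¹) a : ℂˣ) : ℂ)) =
          (fun a => (((li⁻¹) a : ℂˣ) : ℂ)) + (j : A → ℂ) := by
        rw [hsum', ← hi_real]
      exact (add_left_cancel e).symm
    have hri : ∀ a, li a ^ 2 = 1 := by
      intro a
      have e := congrFun hi_real a
      rw [hli] at e
      simp only [MonoidHom.inv_apply] at e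
      have e2 : li a = (li a)⁻¹ := Units.ext e
      rw [pow_two]
      calc li a * li a = (li a)⁻¹ * li a := by rw [← e2]
        _ = 1 := inv_mul_cancel _
    have hrj : ∀ a, lj a ^ 2 = 1 := by
      intro a
      have e := congrFun hj_real a
      rw [hlj] at e
      simp only [MonoidHom.inv_apply] at e
      have e2 : lj a = (lj a)⁻¹ := Units.ext e
      rw [pow_two]
      calc lj a * lj a = (lj a)⁻¹ * lj a := by rw [← e2]
        _ = 1 := inv_mul_cancel _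
    have heq := real_unique hcyc li lj hri hrj hnti hntj
    apply hne
    funext a
    rw [hli, hlj, heq]

end main

end Cfsg.Agent.Lib.Helper14.AbTorus
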