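import Mathlib
import Cfsg.Prelude.Def_ChevStructure

set_option autoImplicit false

namespace Cfsg.Agent.Lib.Helper14.CoxGen

section generic

variable {B : Type*} {W : Type*} [Group W] {M : CoxeterMatrix B}

theorem wp_cancel (cs : CoxeterSystem M W) (a b : List B) (i : B) :
    cs.wordProd (a ++ i :: i :: b) = cs.wordProd (a ++ b) := by
  simp [CoxeterSystem.wordProd_append, CoxeterSystem.wordProd_cons]

theorem wp_comm (cs : CoxeterSystem M W) (a b : List B) (i j : B) (h : M i j = 2) :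
    cs.wordProd (a ++ i :: j :: b) = cs.wordProd (a ++ j :: i :: b) := by
  have h1 := cs.simple_mul_simple_pow i j
  rw [h, pow_two] at h1
  have hc : cs.simple i * cs.simple j = cs.simple j * cs.simple i := by
    have h2 : cs.simple i * cs.simple j = (cs.simple i * cs.simple j)⁻¹ :=
      eq_inv_of_mul_eq_one_left h1
    rw [h2, mul_inv_rev, cs.inv_simple, cs.inv_simple]
  simp only [CoxeterSystem.wordProd_append, CoxeterSystem.wordProd_cons]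
  rw [← mul_assoc (cs.simple i), hc, mul_assoc]

theorem wp_braid (cs : CoxeterSystem M W) (a b : List B) (i j : B) (h : M i j = 3) :
    cs.wordProd (a ++ i :: j :: i :: b) = cs.wordProd (a ++ j :: i :: j :: b) := by
  have h1 := cs.simple_mul_simple_pow i j
  rw [h, pow_succ, pow_two] at h1
  have hc : cs.simple i * (cs.simple j * cs.simple i)
      = cs.simple j * (cs.simple i * cs.simple j) := by
    have h2 : cs.simple i * cs.simple j * (cs.simple i * cs.simple j) * (cs.simple i * cs.simple j)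
        * (cs.simple j * cs.simple i * cs.simple j)
        = cs.simple j * cs.simple i * cs.simple j := by rw [h1, one_mul]
    have h3 : cs.simple i * cs.simple j * (cs.simple i * cs.simple j) * (cs.simple i * cs.simple j)
        * (cs.simple j * cs.simple i * cs.simple j) = cs.simple i * cs.simple j * cs.simple i := by
      have e1 := cs.simple_mul_simple_self i
      have e2 := cs.simple_mul_simple_self j
      calc cs.simple i * cs.simple j * (cs.simple i * cs.simple j) * (cs.simple i * cs.simple j)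
            * (cs.simple j * cs.simple i * cs.simple j)
          = cs.simple i * cs.simple j * (cs.simple i * cs.simple j) * cs.simple i
            * ((cs.simple j * cs.simple j) * cs.simple i * cs.simple j) := by group
        _ = cs.simple i * cs.simple j * (cs.simple i * cs.simple j)
            * ((cs.simple i * cs.simple i) * cs.simple j) := by rw [e2]; group
        _ = cs.simple i * cs.simple j * cs.simple i * (cs.simple j * cs.simple j) := by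
            rw [e1]; group
        _ = cs.simple i * cs.simple j * cs.simple i := by rw [e2, mul_one]
    rw [h3] at h2
    rw [← mul_assoc, ← mul_assoc, h2]
  simp only [CoxeterSystem.wordProd_append, CoxeterSystem.wordProd_cons]
  rw [← mul_assoc (cs.simple j) (cs.simple i), ← mul_assoc (cs.simple i), ← mul_assoc (cs.simple i),
    mul_assoc (cs.simple i) (cs.simple j) (cs.simple i), hc]
  simp only [mul_assoc]

theorem mem_of_eq (cs : CoxeterSystem M W) (H : Subgroup W) {a b : List B}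
    (h : cs.wordProd a = cs.wordProd b) (ha : cs.wordProd a ∈ H) : cs.wordProd b ∈ H := h ▸ ha

theorem mem_append (cs : CoxeterSystem M W) (H : Subgroup W) {a b : List B}
    (ha : cs.wordProd a ∈ H) (hb : cs.wordProd b ∈ H) : cs.wordProd (a ++ b) ∈ H := by
  rw [CoxeterSystem.wordProd_append]
  exact H.mul_mem ha hb

theorem mem_conj (cs : CoxeterSystem M W) (H : Subgroup W) {c a b : List B}
    (hc : cs.wordProd c ∈ H) (ha : cs.wordProd a ∈ H)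
    (h : cs.wordProd (c ++ a) = cs.wordProd (b ++ c)) : cs.wordProd b ∈ H := by
  have e : cs.wordProd b = cs.wordProd (c ++ a) * (cs.wordProd c)⁻¹ := by
    rw [h, CoxeterSystem.wordProd_append, mul_inv_cancel_right]
  rw [e]
  exact H.mul_mem (mem_append cs H hc ha) (H.inv_mem hc)

theorem mem_left_cancel (cs : CoxeterSystem M W) (H : Subgroup W) {a b : List B}
    (hab : cs.wordProd (a ++ b) ∈ H) (ha : cs.wordProd a ∈ H) : cs.wordProd b ∈ H := by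
  have e : cs.wordProd b = (cs.wordProd a)⁻¹ * cs.wordProd (a ++ b) := by
    rw [CoxeterSystem.wordProd_append, inv_mul_cancel_left]
  rw [e]
  exact H.mul_mem (H.inv_mem ha) hab

theorem mem_right_cancel (cs : CoxeterSystem M W) (H : Subgroup W) {a b : List B}
    (hab : cs.wordProd (a ++ b) ∈ H) (hb : cs.wordProd b ∈ H) : cs.wordProd a ∈ H := by
  have e : cs.wordProd a = cs.wordProd (a ++ b) * (cs.wordProd b)⁻¹ := by
    rw [CoxeterSystem.wordProd_append, mul_inv_cancel_right]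
  rw [e]
  exact H.mul_mem hab (H.inv_mem hb)

theorem gen_top {n : ℕ} (M : CoxeterMatrix (Fin n)) (H : Subgroup M.Group)
    (h : ∀ i : Fin n, M.toCoxeterSystem.wordProd [i] ∈ H) : H = ⊤ := by
  rw [eq_top_iff, ← M.toCoxeterSystem.subgroup_closure_range_simple, Subgroup.closure_le]
  rintro _ ⟨i, rfl⟩
  have := h i
  rwa [CoxeterSystem.wordProd_singleton] at this

end generic

theorem E6_conj3 :
    (CoxeterMatrix.E₆).toCoxeterSystem.wordProd [0, 1, 2, 3, 4, 5, 3]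
      = (CoxeterMatrix.E₆).toCoxeterSystem.wordProd [4, 0, 1, 2, 3, 4, 5] := by
  set cs := (CoxeterMatrix.E₆).toCoxeterSystem with hcs
  calc cs.wordProd [0, 1, 2, 3, 4, 5, 3]
      = cs.wordProd [0, 1, 2, 3, 4, 3, 5] := (wp_comm cs [0, 1, 2, 3, 4] [] 3 5 (by decide)).symm
    _ = cs.wordProd [0, 1, 2, 4, 3, 4, 5] := (wp_braid cs [0, 1, 2] [5] 4 3 (by decide)).symm
    _ = cs.wordProd [0, 1, 4, 2, 3, 4, 5] := (wp_comm cs [0, 1] [3, 4, 5] 4 2 (by decide)).symm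
    _ = cs.wordProd [0, 4, 1, 2, 3, 4, 5] := (wp_comm cs [0] [2, 3, 4, 5] 4 1 (by decide)).symm
    _ = cs.wordProd [4, 0, 1, 2, 3, 4, 5] := (wp_comm cs [] [1, 2, 3, 4, 5] 4 0 (by decide)).symm

theorem E6_conj4 :
    (CoxeterMatrix.E₆).toCoxeterSystem.wordProd [0, 1, 2, 3, 4, 5, 4]
      = (CoxeterMatrix.E₆).toCoxeterSystem.wordProd [5, 0, 1, 2, 3, 4, 5] := by
  set cs := (CoxeterMatrix.E₆).toCoxeterSystem with hcs
  calc cs.wordProd [0, 1, 2, 3, 4, 5, 4]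
      = cs.wordProd [0, 1, 2, 3, 5, 4, 5] := (wp_braid cs [0, 1, 2, 3] [] 5 4 (by decide)).symm
    _ = cs.wordProd [0, 1, 2, 5, 3, 4, 5] := (wp_comm cs [0, 1, 2] [4, 5] 5 3 (by decide)).symm
    _ = cs.wordProd [0, 1, 5, 2, 3, 4, 5] := (wp_comm cs [0, 1] [3, 4, 5] 5 2 (by decide)).symm
    _ = cs.wordProd [0, 5, 1, 2, 3, 4, 5] := (wp_comm cs [0] [2, 3, 4, 5] 5 1 (by decide)).symm
    _ = cs.wordProd [5, 0, 1, 2, 3, 4, 5] := (wp_comm cs [] [1, 2, 3, 4, 5] 5 0 (by decide)).symm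

theorem E6_cube :
    (CoxeterMatrix.E₆).toCoxeterSystem.wordProd [0, 1, 2, 0, 1, 2, 0, 1, 2]
      = (CoxeterMatrix.E₆).toCoxeterSystem.wordProd [1] := by
  set cs := (CoxeterMatrix.E₆).toCoxeterSystem with hcs
  calc cs.wordProd [0, 1, 2, 0, 1, 2, 0, 1, 2]
      = cs.wordProd [1, 0, 2, 0, 1, 2, 0, 1, 2] := wp_comm cs [] [2, 0, 1, 2, 0, 1, 2] 0 1 (by decide)
    _ = cs.wordProd [1, 0, 2, 0, 2, 1, 0, 1, 2] := wp_comm cs [1, 0, 2, 0] [0, 1, 2] 1 2 (by decide)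
    _ = cs.wordProd [1, 0, 2, 0, 2, 0, 1, 1, 2] := wp_comm cs [1, 0, 2, 0, 2] [1, 2] 1 0 (by decide)
    _ = cs.wordProd [1, 0, 2, 0, 2, 0, 2] := wp_cancel cs [1, 0, 2, 0, 2, 0] [2] 1
    _ = cs.wordProd [1, 2, 0, 2, 2, 0, 2] := wp_braid cs [1] [2, 0, 2] 0 2 (by decide)
    _ = cs.wordProd [1, 2, 0, 0, 2] := wp_cancel cs [1, 2, 0] [0, 2] 2
    _ = cs.wordProd [1, 2, 2] := wp_cancel cs [1, 2] [2] 0
    _ = cs.wordProd [1] := wp_cancel cs [1] [] 2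

theorem E6_d1 :
    (CoxeterMatrix.E₆).toCoxeterSystem.wordProd [0, 1, 2, 1]
      = (CoxeterMatrix.E₆).toCoxeterSystem.wordProd [0, 2] := by
  set cs := (CoxeterMatrix.E₆).toCoxeterSystem with hcs
  calc cs.wordProd [0, 1, 2, 1]
      = cs.wordProd [0, 2, 1, 1] := wp_comm cs [0] [1] 1 2 (by decide)
    _ = cs.wordProd [0, 2] := wp_cancel cs [0, 2] [] 1

theorem E6_conj02 :
    (CoxeterMatrix.E₆).toCoxeterSystem.wordProd [0, 1, 2, 3, 4, 5, 0, 2]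
      = (CoxeterMatrix.E₆).toCoxeterSystem.wordProd [2, 1, 3, 1, 0, 1, 2, 3, 4, 5] := by
  set cs := (CoxeterMatrix.E₆).toCoxeterSystem with hcs
  calc cs.wordProd [0, 1, 2, 3, 4, 5, 0, 2]
      = cs.wordProd [0, 1, 2, 3, 4, 0, 5, 2] := (wp_comm cs [0, 1, 2, 3, 4] [2] 0 5 (by decide)).symm
    _ = cs.wordProd [0, 1, 2, 3, 0, 4, 5, 2] := (wp_comm cs [0, 1, 2, 3] [5, 2] 0 4 (by decide)).symm
    _ = cs.wordProd [0, 1, 2, 0, 3, 4, 5, 2] := (wp_comm cs [0, 1, 2] [4, 5, 2] 0 3 (by decide)).symm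
    _ = cs.wordProd [1, 0, 2, 0, 3, 4, 5, 2] := (wp_comm cs [] [2, 0, 3, 4, 5, 2] 1 0 (by decide)).symm
    _ = cs.wordProd [1, 2, 0, 2, 3, 4, 5, 2] := (wp_braid cs [1] [3, 4, 5, 2] 2 0 (by decide)).symm
    _ = cs.wordProd [1, 2, 0, 2, 3, 4, 2, 5] := (wp_comm cs [1, 2, 0, 2, 3, 4] [] 2 5 (by decide)).symm
    _ = cs.wordProd [1, 2, 0, 2, 3, 2, 4, 5] := (wp_comm cs [1, 2, 0, 2, 3] [5] 2 4 (by decide)).symm
    _ = cs.wordProd [1, 2, 0, 3, 2, 3, 4, 5] := (wp_braid cs [1, 2, 0] [4, 5] 3 2 (by decide)).symm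
    _ = cs.wordProd [1, 2, 0, 3, 1, 1, 2, 3, 4, 5] := (wp_cancel cs [1, 2, 0, 3] [2, 3, 4, 5] 1).symm
    _ = cs.wordProd [1, 2, 3, 0, 1, 1, 2, 3, 4, 5] := (wp_comm cs [1, 2] [1, 1, 2, 3, 4, 5] 3 0 (by decide)).symm
    _ = cs.wordProd [1, 2, 3, 1, 0, 1, 2, 3, 4, 5] := (wp_comm cs [1, 2, 3] [1, 2, 3, 4, 5] 1 0 (by decide)).symm
    _ = cs.wordProd [2, 1, 3, 1, 0, 1, 2, 3, 4, 5] := (wp_comm cs [] [3, 1, 0, 1, 2, 3, 4, 5] 2 1 (by decide)).symm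

theorem E7_conj3 :
    (CoxeterMatrix.E₇).toCoxeterSystem.wordProd [0, 1, 2, 3, 4, 5, 6, 3]
      = (CoxeterMatrix.E₇).toCoxeterSystem.wordProd [4, 0, 1, 2, 3, 4, 5, 6] := by
  set cs := (CoxeterMatrix.E₇).toCoxeterSystem with hcs
  calc cs.wordProd [0, 1, 2, 3, 4, 5, 6, 3]
      = cs.wordProd [0, 1, 2, 3, 4, 5, 3, 6] := (wp_comm cs [0, 1, 2, 3, 4, 5] [] 3 6 (by decide)).symm
    _ = cs.wordProd [0, 1, 2, 3, 4, 3, 5, 6] := (wp_comm cs [0, 1, 2, 3, 4] [6] 3 5 (by decide)).symm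
    _ = cs.wordProd [0, 1, 2, 4, 3, 4, 5, 6] := (wp_braid cs [0, 1, 2] [5, 6] 4 3 (by decide)).symm
    _ = cs.wordProd [0, 1, 4, 2, 3, 4, 5, 6] := (wp_comm cs [0, 1] [3, 4, 5, 6] 4 2 (by decide)).symm
    _ = cs.wordProd [0, 4, 1, 2, 3, 4, 5, 6] := (wp_comm cs [0] [2, 3, 4, 5, 6] 4 1 (by decide)).symm
    _ = cs.wordProd [4, 0, 1, 2, 3, 4, 5, 6] := (wp_comm cs [] [1, 2, 3, 4, 5, 6] 4 0 (by decide)).symm

theorem E7_conj4 :
    (CoxeterMatrix.E₇).toCoxeterSystem.wordProd [0, 1, 2, 3, 4, 5, 6, 4]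
      = (CoxeterMatrix.E₇).toCoxeterSystem.wordProd [5, 0, 1, 2, 3, 4, 5, 6] := by
  set cs := (CoxeterMatrix.E₇).toCoxeterSystem with hcs
  calc cs.wordProd [0, 1, 2, 3, 4, 5, 6, 4]
      = cs.wordProd [0, 1, 2, 3, 4, 5, 4, 6] := (wp_comm cs [0, 1, 2, 3, 4, 5] [] 4 6 (by decide)).symm
    _ = cs.wordProd [0, 1, 2, 3, 5, 4, 5, 6] := (wp_braid cs [0, 1, 2, 3] [6] 5 4 (by decide)).symm
    _ = cs.wordProd [0, 1, 2, 5, 3, 4, 5, 6] := (wp_comm cs [0, 1, 2] [4, 5, 6] 5 3 (by decide)).symm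
    _ = cs.wordProd [0, 1, 5, 2, 3, 4, 5, 6] := (wp_comm cs [0, 1] [3, 4, 5, 6] 5 2 (by decide)).symm
    _ = cs.wordProd [0, 5, 1, 2, 3, 4, 5, 6] := (wp_comm cs [0] [2, 3, 4, 5, 6] 5 1 (by decide)).symm
    _ = cs.wordProd [5, 0, 1, 2, 3, 4, 5, 6] := (wp_comm cs [] [1, 2, 3, 4, 5, 6] 5 0 (by decide)).symm

theorem E7_conj5 :
    (CoxeterMatrix.E₇).toCoxeterSystem.wordProd [0, 1, 2, 3, 4, 5, 6, 5]
      = (CoxeterMatrix.E₇).toCoxeterSystem.wordProd [6, 0, 1, 2, 3, 4, 5, 6] := by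
  set cs := (CoxeterMatrix.E₇).toCoxeterSystem with hcs
  calc cs.wordProd [0, 1, 2, 3, 4, 5, 6, 5]
      = cs.wordProd [0, 1, 2, 3, 4, 6, 5, 6] := (wp_braid cs [0, 1, 2, 3, 4] [] 6 5 (by decide)).symm
    _ = cs.wordProd [0, 1, 2, 3, 6, 4, 5, 6] := (wp_comm cs [0, 1, 2, 3] [5, 6] 6 4 (by decide)).symm
    _ = cs.wordProd [0, 1, 2, 6, 3, 4, 5, 6] := (wp_comm cs [0, 1, 2] [4, 5, 6] 6 3 (by decide)).symm
    _ = cs.wordProd [0, 1, 6, 2, 3, 4, 5, 6] := (wp_comm cs [0, 1] [3, 4, 5, 6] 6 2 (by decide)).symm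
    _ = cs.wordProd [0, 6, 1, 2, 3, 4, 5, 6] := (wp_comm cs [0] [2, 3, 4, 5, 6] 6 1 (by decide)).symm
    _ = cs.wordProd [6, 0, 1, 2, 3, 4, 5, 6] := (wp_comm cs [] [1, 2, 3, 4, 5, 6] 6 0 (by decide)).symm

theorem E7_cube :
    (CoxeterMatrix.E₇).toCoxeterSystem.wordProd [0, 1, 2, 0, 1, 2, 0, 1, 2]
      = (CoxeterMatrix.E₇).toCoxeterSystem.wordProd [1] := by
  set cs := (CoxeterMatrix.E₇).toCoxeterSystem with hcs
  calc cs.wordProd [0, 1, 2, 0, 1, 2, 0, 1, 2]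
      = cs.wordProd [1, 0, 2, 0, 1, 2, 0, 1, 2] := wp_comm cs [] [2, 0, 1, 2, 0, 1, 2] 0 1 (by decide)
    _ = cs.wordProd [1, 0, 2, 0, 2, 1, 0, 1, 2] := wp_comm cs [1, 0, 2, 0] [0, 1, 2] 1 2 (by decide)
    _ = cs.wordProd [1, 0, 2, 0, 2, 0, 1, 1, 2] := wp_comm cs [1, 0, 2, 0, 2] [1, 2] 1 0 (by decide)
    _ = cs.wordProd [1, 0, 2, 0, 2, 0, 2] := wp_cancel cs [1, 0, 2, 0, 2, 0] [2] 1
    _ = cs.wordProd [1, 2, 0, 2, 2, 0, 2] := wp_braid cs [1] [2, 0, 2] 0 2 (by decide)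
    _ = cs.wordProd [1, 2, 0, 0, 2] := wp_cancel cs [1, 2, 0] [0, 2] 2
    _ = cs.wordProd [1, 2, 2] := wp_cancel cs [1, 2] [2] 0
    _ = cs.wordProd [1] := wp_cancel cs [1] [] 2

theorem E7_d1 :
    (CoxeterMatrix.E₇).toCoxeterSystem.wordProd [0, 1, 2, 1]
      = (CoxeterMatrix.E₇).toCoxeterSystem.wordProd [0, 2] := by
  set cs := (CoxeterMatrix.E₇).toCoxeterSystem with hcs
  calc cs.wordProd [0, 1, 2, 1]
      = cs.wordProd [0, 2, 1, 1] := wp_comm cs [0] [1] 1 2 (by decide)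
    _ = cs.wordProd [0, 2] := wp_cancel cs [0, 2] [] 1

theorem E7_conj02 :
    (CoxeterMatrix.E₇).toCoxeterSystem.wordProd [0, 1, 2, 3, 4, 5, 6, 0, 2]
      = (CoxeterMatrix.E₇).toCoxeterSystem.wordProd [2, 1, 3, 1, 0, 1, 2, 3, 4, 5, 6] := by
  set cs := (CoxeterMatrix.E₇).toCoxeterSystem with hcs
  calc cs.wordProd [0, 1, 2, 3, 4, 5, 6, 0, 2]
      = cs.wordProd [0, 1, 2, 3, 4, 5, 0, 6, 2] := (wp_comm cs [0, 1, 2, 3, 4, 5] [2] 0 6 (by decide)).symm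
    _ = cs.wordProd [0, 1, 2, 3, 4, 0, 5, 6, 2] := (wp_comm cs [0, 1, 2, 3, 4] [6, 2] 0 5 (by decide)).symm
    _ = cs.wordProd [0, 1, 2, 3, 0, 4, 5, 6, 2] := (wp_comm cs [0, 1, 2, 3] [5, 6, 2] 0 4 (by decide)).symm
    _ = cs.wordProd [0, 1, 2, 0, 3, 4, 5, 6, 2] := (wp_comm cs [0, 1, 2] [4, 5, 6, 2] 0 3 (by decide)).symm
    _ = cs.wordProd [1, 0, 2, 0, 3, 4, 5, 6, 2] := (wp_comm cs [] [2, 0, 3, 4, 5, 6, 2] 1 0 (by decide)).symm
    _ = cs.wordProd [1, 2, 0, 2, 3, 4, 5, 6, 2] := (wp_braid cs [1] [3, 4, 5, 6, 2] 2 0 (by decide)).symm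
    _ = cs.wordProd [1, 2, 0, 2, 3, 4, 5, 2, 6] := (wp_comm cs [1, 2, 0, 2, 3, 4, 5] [] 2 6 (by decide)).symm
    _ = cs.wordProd [1, 2, 0, 2, 3, 4, 2, 5, 6] := (wp_comm cs [1, 2, 0, 2, 3, 4] [6] 2 5 (by decide)).symm
    _ = cs.wordProd [1, 2, 0, 2, 3, 2, 4, 5, 6] := (wp_comm cs [1, 2, 0, 2, 3] [5, 6] 2 4 (by decide)).symm
    _ = cs.wordProd [1, 2, 0, 3, 2, 3, 4, 5, 6] := (wp_braid cs [1, 2, 0] [4, 5, 6] 3 2 (by decide)).symm
    _ = cs.wordProd [1, 2, 0, 3, 1, 1, 2, 3, 4, 5, 6] := (wp_cancel cs [1, 2, 0, 3] [2, 3, 4, 5, 6] 1).symm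
    _ = cs.wordProd [1, 2, 3, 0, 1, 1, 2, 3, 4, 5, 6] := (wp_comm cs [1, 2] [1, 1, 2, 3, 4, 5, 6] 3 0 (by decide)).symm
    _ = cs.wordProd [1, 2, 3, 1, 0, 1, 2, 3, 4, 5, 6] := (wp_comm cs [1, 2, 3] [1, 2, 3, 4, 5, 6] 1 0 (by decide)).symm
    _ = cs.wordProd [2, 1, 3, 1, 0, 1, 2, 3, 4, 5, 6] := (wp_comm cs [] [3, 1, 0, 1, 2, 3, 4, 5, 6] 2 1 (by decide)).symm

theorem E8_conj3 :
    (CoxeterMatrix.E₈).toCoxeterSystem.wordProd [0, 1, 2, 3, 4, 5, 6, 7, 3]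
      = (CoxeterMatrix.E₈).toCoxeterSystem.wordProd [4, 0, 1, 2, 3, 4, 5, 6, 7] := by
  set cs := (CoxeterMatrix.E₈).toCoxeterSystem with hcs
  calc cs.wordProd [0, 1, 2, 3, 4, 5, 6, 7, 3]
      = cs.wordProd [0, 1, 2, 3, 4, 5, 6, 3, 7] := (wp_comm cs [0, 1, 2, 3, 4, 5, 6] [] 3 7 (by decide)).symm
    _ = cs.wordProd [0, 1, 2, 3, 4, 5, 3, 6, 7] := (wp_comm cs [0, 1, 2, 3, 4, 5] [7] 3 6 (by decide)).symm
    _ = cs.wordProd [0, 1, 2, 3, 4, 3, 5, 6, 7] := (wp_comm cs [0, 1, 2, 3, 4] [6, 7] 3 5 (by decide)).symm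
    _ = cs.wordProd [0, 1, 2, 4, 3, 4, 5, 6, 7] := (wp_braid cs [0, 1, 2] [5, 6, 7] 4 3 (by decide)).symm
    _ = cs.wordProd [0, 1, 4, 2, 3, 4, 5, 6, 7] := (wp_comm cs [0, 1] [3, 4, 5, 6, 7] 4 2 (by decide)).symm
    _ = cs.wordProd [0, 4, 1, 2, 3, 4, 5, 6, 7] := (wp_comm cs [0] [2, 3, 4, 5, 6, 7] 4 1 (by decide)).symm
    _ = cs.wordProd [4, 0, 1, 2, 3, 4, 5, 6, 7] := (wp_comm cs [] [1, 2, 3, 4, 5, 6, 7] 4 0 (by decide)).symm

theorem E8_conj4 :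
    (CoxeterMatrix.E₈).toCoxeterSystem.wordProd [0, 1, 2, 3, 4, 5, 6, 7, 4]
      = (CoxeterMatrix.E₈).toCoxeterSystem.wordProd [5, 0, 1, 2, 3, 4, 5, 6, 7] := by
  set cs := (CoxeterMatrix.E₈).toCoxeterSystem with hcs
  calc cs.wordProd [0, 1, 2, 3, 4, 5, 6, 7, 4]
      = cs.wordProd [0, 1, 2, 3, 4, 5, 6, 4, 7] := (wp_comm cs [0, 1, 2, 3, 4, 5, 6] [] 4 7 (by decide)).symm
    _ = cs.wordProd [0, 1, 2, 3, 4, 5, 4, 6, 7] := (wp_comm cs [0, 1, 2, 3, 4, 5] [7] 4 6 (by decide)).symm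
    _ = cs.wordProd [0, 1, 2, 3, 5, 4, 5, 6, 7] := (wp_braid cs [0, 1, 2, 3] [6, 7] 5 4 (by decide)).symm
    _ = cs.wordProd [0, 1, 2, 5, 3, 4, 5, 6, 7] := (wp_comm cs [0, 1, 2] [4, 5, 6, 7] 5 3 (by decide)).symm
    _ = cs.wordProd [0, 1, 5, 2, 3, 4, 5, 6, 7] := (wp_comm cs [0, 1] [3, 4, 5, 6, 7] 5 2 (by decide)).symm
    _ = cs.wordProd [0, 5, 1, 2, 3, 4, 5, 6, 7] := (wp_comm cs [0] [2, 3, 4, 5, 6, 7] 5 1 (by decide)).symm
    _ = cs.wordProd [5, 0, 1, 2, 3, 4, 5, 6, 7] := (wp_comm cs [] [1, 2, 3, 4, 5, 6, 7] 5 0 (by decide)).symm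

theorem E8_conj5 :
    (CoxeterMatrix.E₈).toCoxeterSystem.wordProd [0, 1, 2, 3, 4, 5, 6, 7, 5]
      = (CoxeterMatrix.E₈).toCoxeterSystem.wordProd [6, 0, 1, 2, 3, 4, 5, 6, 7] := by
  set cs := (CoxeterMatrix.E₈).toCoxeterSystem with hcs
  calc cs.wordProd [0, 1, 2, 3, 4, 5, 6, 7, 5]
      = cs.wordProd [0, 1, 2, 3, 4, 5, 6, 5, 7] := (wp_comm cs [0, 1, 2, 3, 4, 5, 6] [] 5 7 (by decide)).symm
    _ = cs.wordProd [0, 1, 2, 3, 4, 6, 5, 6, 7] := (wp_braid cs [0, 1, 2, 3, 4] [7] 6 5 (by decide)).symm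
    _ = cs.wordProd [0, 1, 2, 3, 6, 4, 5, 6, 7] := (wp_comm cs [0, 1, 2, 3] [5, 6, 7] 6 4 (by decide)).symm
    _ = cs.wordProd [0, 1, 2, 6, 3, 4, 5, 6, 7] := (wp_comm cs [0, 1, 2] [4, 5, 6, 7] 6 3 (by decide)).symm
    _ = cs.wordProd [0, 1, 6, 2, 3, 4, 5, 6, 7] := (wp_comm cs [0, 1] [3, 4, 5, 6, 7] 6 2 (by decide)).symm
    _ = cs.wordProd [0, 6, 1, 2, 3, 4, 5, 6, 7] := (wp_comm cs [0] [2, 3, 4, 5, 6, 7] 6 1 (by decide)).symm
    _ = cs.wordProd [6, 0, 1, 2, 3, 4, 5, 6, 7] := (wp_comm cs [] [1, 2, 3, 4, 5, 6, 7] 6 0 (by decide)).symm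

theorem E8_conj6 :
    (CoxeterMatrix.E₈).toCoxeterSystem.wordProd [0, 1, 2, 3, 4, 5, 6, 7, 6]
      = (CoxeterMatrix.E₈).toCoxeterSystem.wordProd [7, 0, 1, 2, 3, 4, 5, 6, 7] := by
  set cs := (CoxeterMatrix.E₈).toCoxeterSystem with hcs
  calc cs.wordProd [0, 1, 2, 3, 4, 5, 6, 7, 6]
      = cs.wordProd [0, 1, 2, 3, 4, 5, 7, 6, 7] := (wp_braid cs [0, 1, 2, 3, 4, 5] [] 7 6 (by decide)).symm
    _ = cs.wordProd [0, 1, 2, 3, 4, 7, 5, 6, 7] := (wp_comm cs [0, 1, 2, 3, 4] [6, 7] 7 5 (by decide)).symm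
    _ = cs.wordProd [0, 1, 2, 3, 7, 4, 5, 6, 7] := (wp_comm cs [0, 1, 2, 3] [5, 6, 7] 7 4 (by decide)).symm
    _ = cs.wordProd [0, 1, 2, 7, 3, 4, 5, 6, 7] := (wp_comm cs [0, 1, 2] [4, 5, 6, 7] 7 3 (by decide)).symm
    _ = cs.wordProd [0, 1, 7, 2, 3, 4, 5, 6, 7] := (wp_comm cs [0, 1] [3, 4, 5, 6, 7] 7 2 (by decide)).symm
    _ = cs.wordProd [0, 7, 1, 2, 3, 4, 5, 6, 7] := (wp_comm cs [0] [2, 3, 4, 5, 6, 7] 7 1 (by decide)).symm
    _ = cs.wordProd [7, 0, 1, 2, 3, 4, 5, 6, 7] := (wp_comm cs [] [1, 2, 3, 4, 5, 6, 7] 7 0 (by decide)).symm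

theorem E8_cube :
    (CoxeterMatrix.E₈).toCoxeterSystem.wordProd [0, 1, 2, 0, 1, 2, 0, 1, 2]
      = (CoxeterMatrix.E₈).toCoxeterSystem.wordProd [1] := by
  set cs := (CoxeterMatrix.E₈).toCoxeterSystem with hcs
  calc cs.wordProd [0, 1, 2, 0, 1, 2, 0, 1, 2]
      = cs.wordProd [1, 0, 2, 0, 1, 2, 0, 1, 2] := wp_comm cs [] [2, 0, 1, 2, 0, 1, 2] 0 1 (by decide)
    _ = cs.wordProd [1, 0, 2, 0, 2, 1, 0, 1, 2] := wp_comm cs [1, 0, 2, 0] [0, 1, 2] 1 2 (by decide)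
    _ = cs.wordProd [1, 0, 2, 0, 2, 0, 1, 1, 2] := wp_comm cs [1, 0, 2, 0, 2] [1, 2] 1 0 (by decide)
    _ = cs.wordProd [1, 0, 2, 0, 2, 0, 2] := wp_cancel cs [1, 0, 2, 0, 2, 0] [2] 1
    _ = cs.wordProd [1, 2, 0, 2, 2, 0, 2] := wp_braid cs [1] [2, 0, 2] 0 2 (by decide)
    _ = cs.wordProd [1, 2, 0, 0, 2] := wp_cancel cs [1, 2, 0] [0, 2] 2
    _ = cs.wordProd [1, 2, 2] := wp_cancel cs [1, 2] [2] 0
    _ = cs.wordProd [1] := wp_cancel cs [1] [] 2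

theorem E8_d1 :
    (CoxeterMatrix.E₈).toCoxeterSystem.wordProd [0, 1, 2, 1]
      = (CoxeterMatrix.E₈).toCoxeterSystem.wordProd [0, 2] := by
  set cs := (CoxeterMatrix.E₈).toCoxeterSystem with hcs
  calc cs.wordProd [0, 1, 2, 1]
      = cs.wordProd [0, 2, 1, 1] := wp_comm cs [0] [1] 1 2 (by decide)
    _ = cs.wordProd [0, 2] := wp_cancel cs [0, 2] [] 1

theorem E8_conj02 :
    (CoxeterMatrix.E₈).toCoxeterSystem.wordProd [0, 1, 2, 3, 4, 5, 6, 7, 0, 2]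
      = (CoxeterMatrix.E₈).toCoxeterSystem.wordProd [2, 1, 3, 1, 0, 1, 2, 3, 4, 5, 6, 7] := by
  set cs := (CoxeterMatrix.E₈).toCoxeterSystem with hcs
  calc cs.wordProd [0, 1, 2, 3, 4, 5, 6, 7, 0, 2]
      = cs.wordProd [0, 1, 2, 3, 4, 5, 6, 0, 7, 2] := (wp_comm cs [0, 1, 2, 3, 4, 5, 6] [2] 0 7 (by decide)).symm
    _ = cs.wordProd [0, 1, 2, 3, 4, 5, 0, 6, 7, 2] := (wp_comm cs [0, 1, 2, 3, 4, 5] [7, 2] 0 6 (by decide)).symm
    _ = cs.wordProd [0, 1, 2, 3, 4, 0, 5, 6, 7, 2] := (wp_comm cs [0, 1, 2, 3, 4] [6, 7, 2] 0 5 (by decide)).symm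
    _ = cs.wordProd [0, 1, 2, 3, 0, 4, 5, 6, 7, 2] := (wp_comm cs [0, 1, 2, 3] [5, 6, 7, 2] 0 4 (by decide)).symm
    _ = cs.wordProd [0, 1, 2, 0, 3, 4, 5, 6, 7, 2] := (wp_comm cs [0, 1, 2] [4, 5, 6, 7, 2] 0 3 (by decide)).symm
    _ = cs.wordProd [1, 0, 2, 0, 3, 4, 5, 6, 7, 2] := (wp_comm cs [] [2, 0, 3, 4, 5, 6, 7, 2] 1 0 (by decide)).symm
    _ = cs.wordProd [1, 2, 0, 2, 3, 4, 5, 6, 7, 2] := (wp_braid cs [1] [3, 4, 5, 6, 7, 2] 2 0 (by decide)).symm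
    _ = cs.wordProd [1, 2, 0, 2, 3, 4, 5, 6, 2, 7] := (wp_comm cs [1, 2, 0, 2, 3, 4, 5, 6] [] 2 7 (by decide)).symm
    _ = cs.wordProd [1, 2, 0, 2, 3, 4, 5, 2, 6, 7] := (wp_comm cs [1, 2, 0, 2, 3, 4, 5] [7] 2 6 (by decide)).symm
    _ = cs.wordProd [1, 2, 0, 2, 3, 4, 2, 5, 6, 7] := (wp_comm cs [1, 2, 0, 2, 3, 4] [6, 7] 2 5 (by decide)).symm
    _ = cs.wordProd [1, 2, 0, 2, 3, 2, 4, 5, 6, 7] := (wp_comm cs [1, 2, 0, 2, 3] [5, 6, 7] 2 4 (by decide)).symm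
    _ = cs.wordProd [1, 2, 0, 3, 2, 3, 4, 5, 6, 7] := (wp_braid cs [1, 2, 0] [4, 5, 6, 7] 3 2 (by decide)).symm
    _ = cs.wordProd [1, 2, 0, 3, 1, 1, 2, 3, 4, 5, 6, 7] := (wp_cancel cs [1, 2, 0, 3] [2, 3, 4, 5, 6, 7] 1).symm
    _ = cs.wordProd [1, 2, 3, 0, 1, 1, 2, 3, 4, 5, 6, 7] := (wp_comm cs [1, 2] [1, 1, 2, 3, 4, 5, 6, 7] 3 0 (by decide)).symm
    _ = cs.wordProd [1, 2, 3, 1, 0, 1, 2, 3, 4, 5, 6, 7] := (wp_comm cs [1, 2, 3] [1, 2, 3, 4, 5, 6, 7] 1 0 (by decide)).symm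
    _ = cs.wordProd [2, 1, 3, 1, 0, 1, 2, 3, 4, 5, 6, 7] := (wp_comm cs [] [3, 1, 0, 1, 2, 3, 4, 5, 6, 7] 2 1 (by decide)).symm

theorem D4_conj0 :
    (Cfsg.Lie.coxeterD4).toCoxeterSystem.wordProd [0, 1, 2, 3, 0]
      = (Cfsg.Lie.coxeterD4).toCoxeterSystem.wordProd [1, 0, 1, 2, 3] := by
  set cs := (Cfsg.Lie.coxeterD4).toCoxeterSystem with hcs
  calc cs.wordProd [0, 1, 2, 3, 0]
      = cs.wordProd [0, 1, 2, 0, 3] := (wp_comm cs [0, 1, 2] [] 0 3 (by decide)).symm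
    _ = cs.wordProd [0, 1, 0, 2, 3] := (wp_comm cs [0, 1] [3] 0 2 (by decide)).symm
    _ = cs.wordProd [1, 0, 1, 2, 3] := (wp_braid cs [] [2, 3] 1 0 (by decide)).symm

theorem F4_conj0 :
    (CoxeterMatrix.F₄).toCoxeterSystem.wordProd [0, 1, 2, 3, 0]
      = (CoxeterMatrix.F₄).toCoxeterSystem.wordProd [1, 0, 1, 2, 3] := by
  set cs := (CoxeterMatrix.F₄).toCoxeterSystem with hcs
  calc cs.wordProd [0, 1, 2, 3, 0]
      = cs.wordProd [0, 1, 2, 0, 3] := (wp_comm cs [0, 1, 2] [] 0 3 (by decide)).symm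
    _ = cs.wordProd [0, 1, 0, 2, 3] := (wp_comm cs [0, 1] [3] 0 2 (by decide)).symm
    _ = cs.wordProd [1, 0, 1, 2, 3] := (wp_braid cs [] [2, 3] 1 0 (by decide)).symm

theorem F4_conj2 :
    (CoxeterMatrix.F₄).toCoxeterSystem.wordProd [0, 1, 2, 3, 2]
      = (CoxeterMatrix.F₄).toCoxeterSystem.wordProd [3, 0, 1, 2, 3] := by
  set cs := (CoxeterMatrix.F₄).toCoxeterSystem with hcs
  calc cs.wordProd [0, 1, 2, 3, 2]
      = cs.wordProd [0, 1, 3, 2, 3] := (wp_braid cs [0, 1] [] 3 2 (by decide)).symm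
    _ = cs.wordProd [0, 3, 1, 2, 3] := (wp_comm cs [0] [2, 3] 3 1 (by decide)).symm
    _ = cs.wordProd [3, 0, 1, 2, 3] := (wp_comm cs [] [1, 2, 3] 3 0 (by decide)).symm

theorem E6_all (H : Subgroup (CoxeterMatrix.E₆).Group)
    (hc : (CoxeterMatrix.E₆).toCoxeterSystem.wordProd [0, 1, 2, 3, 4, 5] ∈ H)
    (h3 : (CoxeterMatrix.E₆).toCoxeterSystem.wordProd [3] ∈ H) :
    ∀ i : Fin 6, (CoxeterMatrix.E₆).toCoxeterSystem.wordProd [i] ∈ H := by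
  set cs := (CoxeterMatrix.E₆).toCoxeterSystem with hcs
  have h4 : cs.wordProd [4] ∈ H := mem_conj cs H (b := [4]) hc h3 E6_conj3
  have h5 : cs.wordProd [5] ∈ H := mem_conj cs H (b := [5]) hc h4 E6_conj4
  have htail : cs.wordProd [3, 4, 5] ∈ H := (mem_append cs H h3 (mem_append cs H h4 h5))
  have hd : cs.wordProd [0, 1, 2] ∈ H := mem_right_cancel cs H (a := [0, 1, 2]) (b := [3, 4, 5]) hc htail
  have h1 : cs.wordProd [1] ∈ H := mem_of_eq cs H E6_cube (mem_append cs H hd (mem_append cs H hd hd))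
  have h02 : cs.wordProd [0, 2] ∈ H := mem_of_eq cs H E6_d1 (mem_append cs H hd h1)
  have h2131 : cs.wordProd [2, 1, 3, 1] ∈ H := mem_conj cs H (b := [2, 1, 3, 1]) hc h02 E6_conj02
  have h2 : cs.wordProd [2] ∈ H :=
    mem_right_cancel cs H (a := [2]) (b := [1, 3, 1]) h2131 (mem_append cs H h1 (mem_append cs H h3 h1))
  have h0 : cs.wordProd [0] ∈ H := mem_right_cancel cs H (a := [0]) (b := [2]) h02 h2
  intro i
  fin_cases i
  exacts [h0, h1, h2, h3, h4, h5]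

theorem E7_all (H : Subgroup (CoxeterMatrix.E₇).Group)
    (hc : (CoxeterMatrix.E₇).toCoxeterSystem.wordProd [0, 1, 2, 3, 4, 5, 6] ∈ H)
    (h3 : (CoxeterMatrix.E₇).toCoxeterSystem.wordProd [3] ∈ H) :
    ∀ i : Fin 7, (CoxeterMatrix.E₇).toCoxeterSystem.wordProd [i] ∈ H := by
  set cs := (CoxeterMatrix.E₇).toCoxeterSystem with hcs
  have h4 : cs.wordProd [4] ∈ H := mem_conj cs H (b := [4]) hc h3 E7_conj3
  have h5 : cs.wordProd [5] ∈ H := mem_conj cs H (b := [5]) hc h4 E7_conj4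
  have h6 : cs.wordProd [6] ∈ H := mem_conj cs H (b := [6]) hc h5 E7_conj5
  have htail : cs.wordProd [3, 4, 5, 6] ∈ H := (mem_append cs H h3 (mem_append cs H h4 (mem_append cs H h5 h6)))
  have hd : cs.wordProd [0, 1, 2] ∈ H := mem_right_cancel cs H (a := [0, 1, 2]) (b := [3, 4, 5, 6]) hc htail
  have h1 : cs.wordProd [1] ∈ H := mem_of_eq cs H E7_cube (mem_append cs H hd (mem_append cs H hd hd))
  have h02 : cs.wordProd [0, 2] ∈ H := mem_of_eq cs H E7_d1 (mem_append cs H hd h1)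
  have h2131 : cs.wordProd [2, 1, 3, 1] ∈ H := mem_conj cs H (b := [2, 1, 3, 1]) hc h02 E7_conj02
  have h2 : cs.wordProd [2] ∈ H :=
    mem_right_cancel cs H (a := [2]) (b := [1, 3, 1]) h2131 (mem_append cs H h1 (mem_append cs H h3 h1))
  have h0 : cs.wordProd [0] ∈ H := mem_right_cancel cs H (a := [0]) (b := [2]) h02 h2
  intro i
  fin_cases i
  exacts [h0, h1, h2, h3, h4, h5, h6]

theorem E8_all (H : Subgroup (CoxeterMatrix.E₈).Group)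
    (hc : (CoxeterMatrix.E₈).toCoxeterSystem.wordProd [0, 1, 2, 3, 4, 5, 6, 7] ∈ H)
    (h3 : (CoxeterMatrix.E₈).toCoxeterSystem.wordProd [3] ∈ H) :
    ∀ i : Fin 8, (CoxeterMatrix.E₈).toCoxeterSystem.wordProd [i] ∈ H := by
  set cs := (CoxeterMatrix.E₈).toCoxeterSystem with hcs
  have h4 : cs.wordProd [4] ∈ H := mem_conj cs H (b := [4]) hc h3 E8_conj3
  have h5 : cs.wordProd [5] ∈ H := mem_conj cs H (b := [5]) hc h4 E8_conj4
  have h6 : cs.wordProd [6] ∈ H := mem_conj cs H (b := [6]) hc h5 E8_conj5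
  have h7 : cs.wordProd [7] ∈ H := mem_conj cs H (b := [7]) hc h6 E8_conj6
  have htail : cs.wordProd [3, 4, 5, 6, 7] ∈ H := (mem_append cs H h3 (mem_append cs H h4 (mem_append cs H h5 (mem_append cs H h6 h7))))
  have hd : cs.wordProd [0, 1, 2] ∈ H := mem_right_cancel cs H (a := [0, 1, 2]) (b := [3, 4, 5, 6, 7]) hc htail
  have h1 : cs.wordProd [1] ∈ H := mem_of_eq cs H E8_cube (mem_append cs H hd (mem_append cs H hd hd))
  have h02 : cs.wordProd [0, 2] ∈ H := mem_of_eq cs H E8_d1 (mem_append cs H hd h1)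
  have h2131 : cs.wordProd [2, 1, 3, 1] ∈ H := mem_conj cs H (b := [2, 1, 3, 1]) hc h02 E8_conj02
  have h2 : cs.wordProd [2] ∈ H :=
    mem_right_cancel cs H (a := [2]) (b := [1, 3, 1]) h2131 (mem_append cs H h1 (mem_append cs H h3 h1))
  have h0 : cs.wordProd [0] ∈ H := mem_right_cancel cs H (a := [0]) (b := [2]) h02 h2
  intro i
  fin_cases i
  exacts [h0, h1, h2, h3, h4, h5, h6, h7]

theorem D4_all (H : Subgroup (Cfsg.Lie.coxeterD4).Group)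
    (hc : (Cfsg.Lie.coxeterD4).toCoxeterSystem.wordProd [0, 1, 2, 3] ∈ H)
    (h0 : (Cfsg.Lie.coxeterD4).toCoxeterSystem.wordProd [0] ∈ H)
    (h2 : (Cfsg.Lie.coxeterD4).toCoxeterSystem.wordProd [2] ∈ H) :
    ∀ i : Fin 4, (Cfsg.Lie.coxeterD4).toCoxeterSystem.wordProd [i] ∈ H := by
  set cs := (Cfsg.Lie.coxeterD4).toCoxeterSystem with hcs
  have h1 : cs.wordProd [1] ∈ H := mem_conj cs H (b := [1]) hc h0 D4_conj0
  have h012 : cs.wordProd [0, 1, 2] ∈ H := mem_append cs H h0 (mem_append cs H h1 h2)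
  have h3 : cs.wordProd [3] ∈ H := mem_left_cancel cs H (a := [0, 1, 2]) (b := [3]) hc h012
  intro i
  fin_cases i
  exacts [h0, h1, h2, h3]

theorem F4_all (H : Subgroup (CoxeterMatrix.F₄).Group)
    (hc : (CoxeterMatrix.F₄).toCoxeterSystem.wordProd [0, 1, 2, 3] ∈ H)
    (h0 : (CoxeterMatrix.F₄).toCoxeterSystem.wordProd [0] ∈ H)
    (h2 : (CoxeterMatrix.F₄).toCoxeterSystem.wordProd [2] ∈ H) :
    ∀ i : Fin 4, (CoxeterMatrix.F₄).toCoxeterSystem.wordProd [i] ∈ H := by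
  set cs := (CoxeterMatrix.F₄).toCoxeterSystem with hcs
  have h1 : cs.wordProd [1] ∈ H := mem_conj cs H (b := [1]) hc h0 F4_conj0
  have h3 : cs.wordProd [3] ∈ H := mem_conj cs H (b := [3]) hc h2 F4_conj2
  intro i
  fin_cases i
  exacts [h0, h1, h2, h3]

theorem rank2_all (M : CoxeterMatrix (Fin 2)) (H : Subgroup M.Group)
    (hc : M.toCoxeterSystem.wordProd [0, 1] ∈ H)
    (h0 : M.toCoxeterSystem.wordProd [0] ∈ H) :
    ∀ i : Fin 2, M.toCoxeterSystem.wordProd [i] ∈ H := by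
  have h1 : M.toCoxeterSystem.wordProd [1] ∈ H :=
    mem_left_cancel M.toCoxeterSystem H (a := [0]) (b := [1]) hc h0
  intro i
  fin_cases i
  exacts [h0, h1]

theorem D4_ne : (Cfsg.Lie.coxeterD4).simple 0 ≠ (Cfsg.Lie.coxeterD4).simple 2 := by
  intro h
  have hf : CoxeterMatrix.IsLiftable Cfsg.Lie.coxeterD4
      (![Equiv.swap 0 1, Equiv.swap 1 2, Equiv.swap 2 3, Equiv.swap 2 3] :
        Fin 4 → Equiv.Perm (Fin 4)) := by
    intro i i'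
    fin_cases i <;> fin_cases i' <;> decide
  have h2 := congrArg ((Cfsg.Lie.coxeterD4).toCoxeterSystem.lift ⟨_, hf⟩) h
  rw [← CoxeterMatrix.toCoxeterSystem_simple, CoxeterSystem.lift_apply_simple,
    CoxeterSystem.lift_apply_simple] at h2
  revert h2
  decide

theorem F4_ne : (CoxeterMatrix.F₄).simple 0 ≠ (CoxeterMatrix.F₄).simple 2 := by
  intro h
  have hf : CoxeterMatrix.IsLiftable CoxeterMatrix.F₄
      (![1, 1, -1, -1] : Fin 4 → ℤˣ) := by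
    intro i i'
    fin_cases i <;> fin_cases i' <;> decide
  have h2 := congrArg ((CoxeterMatrix.F₄).toCoxeterSystem.lift ⟨_, hf⟩) h
  rw [← CoxeterMatrix.toCoxeterSystem_simple, CoxeterSystem.lift_apply_simple,
    CoxeterSystem.lift_apply_simple] at h2
  revert h2
  decide

end Cfsg.Agent.Lib.Helper14.CoxGen
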