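import Mathlib

set_option autoImplicit false

namespace Cfsg.Agent.Lib.Helper14.Dih3

open Matrix

variable (p : ℕ) [Fact p.Prime]

/-- the elementary abelian group of order `p^3`, multiplicatively. -/
abbrev VV := Multiplicative (Fin 3 → ZMod p)

/-- inversion action of `ℤˣ`. -/
noncomputable def act : ℤˣ →* MulAut (VV p) where
  toFun s :=
    { toFun := fun v => Multiplicative.ofAdd ((s : ℤ) • Multiplicative.toAdd v)
      invFun := fun v => Multiplicative.ofAdd ((s : ℤ) • Multiplicative.toAdd v)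
      left_inv := fun v => by
        rcases Int.units_eq_one_or s with h | h <;> simp [h]
      right_inv := fun v => by
        rcases Int.units_eq_one_or s with h | h <;> simp [h]
      map_mul' := fun v w => by
        simp [smul_add] }
  map_one' := by
    ext v
    simp
  map_mul' s t := by
    ext v
    simp [mul_smul]

/-- the generalized dihedral group of order `2 p^3`. -/
abbrev HH := VV p ⋊[act p] ℤˣ

theorem card_HH : Nat.card (HH p) = 2 * p ^ 3 := by
  rw [SemidirectProduct.card]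
  have h1 : Nat.card (VV p) = p ^ 3 := by
    simp [VV, Nat.card_eq_fintype_card]
  have h2 : Nat.card ℤˣ = 2 := by simp [Nat.card_eq_fintype_card]
  rw [h1, h2, mul_comm]

variable (m : ℕ)

def X : Matrix (Fin (m+1)) (Fin m) (ZMod p) := Matrix.of fun i j => if i = j.castSucc then 1 else 0
def Y : Matrix (Fin (m+1)) (Fin m) (ZMod p) := Matrix.of fun i j => if i = j.succ then 1 else 0
def Z : Matrix (Fin (m+1)) (Fin m) (ZMod p) :=
  Matrix.of fun i j => if i = Fin.last m ∧ j.val = 0 then 1 else 0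

def MM (v : Fin 3 → ZMod p) : Matrix (Fin (m+1)) (Fin m) (ZMod p) :=
  v 0 • X p m + v 1 • Y p m + v 2 • Z p m

theorem MM_add (v w : Fin 3 → ZMod p) : MM p m (v + w) = MM p m v + MM p m w := by
  simp only [MM, Pi.add_apply, add_smul]; abel

theorem MM_zero : MM p m 0 = 0 := by simp [MM]

theorem MM_smul (c : ZMod p) (v : Fin 3 → ZMod p) : MM p m (c • v) = c • MM p m v := by
  simp only [MM, Pi.smul_apply, smul_eq_mul, mul_smul, smul_add]

def UU (M : Matrix (Fin (m+1)) (Fin m) (ZMod p)) :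
    Matrix (Fin (m+1) ⊕ Fin m) (Fin (m+1) ⊕ Fin m) (ZMod p) := fromBlocks 1 M 0 1

def TT (c : ZMod p) :
    Matrix (Fin (m+1) ⊕ Fin m) (Fin (m+1) ⊕ Fin m) (ZMod p) := fromBlocks 1 0 0 (c • 1)

theorem det_UU (M : Matrix (Fin (m+1)) (Fin m) (ZMod p)) : det (UU p m M) = 1 := by
  simp [UU]

theorem det_TT (c : ZMod p) (hm : Even m) (hc : c ^ 2 = 1) : det (TT p m c) = 1 := by
  obtain ⟨k, rfl⟩ := hm
  simp only [TT, det_fromBlocks_zero₂₁, det_one, one_mul, det_smul, Fintype.card_fin, mul_one]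
  rw [← two_mul, pow_mul, hc, one_pow]

theorem UU_mul (M M' : Matrix (Fin (m+1)) (Fin m) (ZMod p)) :
    UU p m M * UU p m M' = UU p m (M + M') := by
  simp [UU, fromBlocks_multiply, add_comm]

theorem TT_mul (c c' : ZMod p) : TT p m c * TT p m c' = TT p m (c * c') := by
  simp [TT, fromBlocks_multiply, mul_smul, smul_comm c' c]

theorem UU_zero : UU p m 0 = 1 := by simp [UU]

theorem TT_one : TT p m 1 = 1 := by simp [TT]

theorem UU_TT (c : ZMod p) (M : Matrix (Fin (m+1)) (Fin m) (ZMod p)) :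
    UU p m M * TT p m c = fromBlocks 1 (c • M) 0 (c • 1) := by
  simp [UU, TT, fromBlocks_multiply]

theorem TT_UU (c : ZMod p) (M : Matrix (Fin (m+1)) (Fin m) (ZMod p)) :
    TT p m c * UU p m M = fromBlocks 1 M 0 (c • 1) := by
  simp [UU, TT, fromBlocks_multiply]

/-- the sign character into `ZMod p`. -/
def sg (s : ℤˣ) : ZMod p := ((s : ℤ) : ZMod p)

theorem sg_mul (s t : ℤˣ) : sg p (s * t) = sg p s * sg p t := by simp [sg]

theorem sg_one : sg p 1 = 1 := by simp [sg]

theorem sg_sq (s : ℤˣ) : sg p s ^ 2 = 1 := by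
  rcases Int.units_eq_one_or s with h | h <;> simp [sg, h]

theorem sg_neg : sg p (-1) = -1 := by simp [sg]

noncomputable def f1 : VV p →* Matrix.SpecialLinearGroup (Fin (m+1) ⊕ Fin m) (ZMod p) where
  toFun v := ⟨UU p m (MM p m v.toAdd), det_UU p m _⟩
  map_one' := by
    apply Subtype.ext
    simp [MM_zero, UU_zero]
  map_mul' v w := by
    apply Subtype.ext
    show UU p m (MM p m (Multiplicative.toAdd (v * w))) =
      UU p m (MM p m (Multiplicative.toAdd v)) * UU p m (MM p m (Multiplicative.toAdd w))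
    rw [toAdd_mul, MM_add, UU_mul]

noncomputable def f2 (hm : Even m) : ℤˣ →* Matrix.SpecialLinearGroup (Fin (m+1) ⊕ Fin m) (ZMod p) where
  toFun s := ⟨TT p m (sg p s), det_TT p m _ hm (sg_sq p s)⟩
  map_one' := by
    apply Subtype.ext
    simp [sg_one, TT_one]
  map_mul' v w := by
    apply Subtype.ext
    show TT p m (sg p (v * w)) = TT p m (sg p v) * TT p m (sg p w)
    rw [sg_mul, TT_mul]

theorem f1_coe (v : VV p) :
    (f1 p m v : Matrix (Fin (m+1) ⊕ Fin m) (Fin (m+1) ⊕ Fin m) (ZMod p)) =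
      UU p m (MM p m (Multiplicative.toAdd v)) := rfl

theorem f2_coe (hm : Even m) (s : ℤˣ) :
    (f2 p m hm s : Matrix (Fin (m+1) ⊕ Fin m) (Fin (m+1) ⊕ Fin m) (ZMod p)) =
      TT p m (sg p s) := rfl

theorem sl_ext {n : Type*} [Fintype n] [DecidableEq n] {R : Type*} [CommRing R]
    {A B : Matrix.SpecialLinearGroup n R} (h : (A : Matrix n n R) = B) : A = B := Subtype.ext h

theorem act_apply (s : ℤˣ) (v : VV p) :
    Multiplicative.toAdd (act p s v) = sg p s • Multiplicative.toAdd v := by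
  show (s : ℤ) • Multiplicative.toAdd v = _
  rw [sg, Int.cast_smul_eq_zsmul]

theorem compat (hm : Even m) (s : ℤˣ) :
    (f1 p m).comp (act p s).toMonoidHom =
      (MulAut.conj (f2 p m hm s)).toMonoidHom.comp (f1 p m) := by
  apply MonoidHom.ext
  intro v
  simp only [MonoidHom.comp_apply, MulEquiv.toMonoidHom_eq_coe, MonoidHom.coe_coe,
    MulAut.conj_apply]
  rw [eq_mul_inv_iff_mul_eq]
  apply sl_ext
  rw [Matrix.SpecialLinearGroup.coe_mul, Matrix.SpecialLinearGroup.coe_mul, f1_coe, f1_coe, f2_coe,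
    UU_TT, TT_UU, act_apply, MM_smul, smul_smul, ← pow_two, sg_sq, one_smul]

/-- the representation. -/
noncomputable def rho (hm : Even m) : HH p →* Matrix.SpecialLinearGroup (Fin (m+1) ⊕ Fin m) (ZMod p) :=
  SemidirectProduct.lift (f1 p m) (f2 p m hm) (compat p m hm)

theorem rho_coe (hm : Even m) (h : HH p) :
    (rho p m hm h : Matrix (Fin (m+1) ⊕ Fin m) (Fin (m+1) ⊕ Fin m) (ZMod p)) =
      fromBlocks 1 (sg p h.right • MM p m h.left.toAdd) 0 (sg p h.right • 1) := by
  have e : rho p m hm h = f1 p m h.left * f2 p m hm h.right := by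
    conv_lhs => rw [← SemidirectProduct.inl_left_mul_inr_right h]
    rw [map_mul, rho, SemidirectProduct.lift_inl, SemidirectProduct.lift_inr]
  rw [e, Matrix.SpecialLinearGroup.coe_mul, f1_coe, f2_coe, UU_TT]

theorem trace_fromBlocks' {a b : Type*} [Fintype a] [Fintype b] {R : Type*} [AddCommMonoid R]
    (A : Matrix a a R) (B : Matrix a b R) (C : Matrix b a R) (D : Matrix b b R) :
    trace (fromBlocks A B C D) = trace A + trace D := by
  simp [Matrix.trace, Fintype.sum_sum_type]

theorem trace_rho (hm : Even m) (hmp : (m : ZMod p) = 0) (h : HH p) :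
    trace (rho p m hm h : Matrix (Fin (m+1) ⊕ Fin m) (Fin (m+1) ⊕ Fin m) (ZMod p)) = 1 := by
  rw [rho_coe]
  simp [trace_fromBlocks', trace_smul, hmp]


theorem two_ne (hp : p ≠ 2) : (2 : ZMod p) ≠ 0 := by
  intro h
  have h' : ((2 : ℕ) : ZMod p) = 0 := by exact_mod_cast h
  rw [ZMod.natCast_eq_zero_iff] at h'
  exact hp ((Nat.prime_dvd_prime_iff_eq (Fact.out : p.Prime) Nat.prime_two).1 h')

theorem MM_apply (v : Fin 3 → ZMod p) (i : Fin (m+1)) (j : Fin m) :
    MM p m v i j = v 0 * (if i = j.castSucc then 1 else 0) + v 1 * (if i = j.succ then 1 else 0)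
      + v 2 * (if i = Fin.last m ∧ j.val = 0 then 1 else 0) := by
  simp [MM, X, Y, Z, Matrix.add_apply]

theorem rho_center (hp : p ≠ 2) (hm : Even m) (hm2 : 2 ≤ m) (h : HH p)
    (hc : rho p m hm h ∈
      Subgroup.center (Matrix.SpecialLinearGroup (Fin (m+1) ⊕ Fin m) (ZMod p))) : h = 1 := by
  rw [Matrix.SpecialLinearGroup.mem_center_iff] at hc
  obtain ⟨r, -, hr⟩ := hc
  rw [rho_coe] at hr
  have e1 := congrFun (congrFun hr (Sum.inl 0)) (Sum.inl 0)
  have e2 := congrFun (congrFun hr (Sum.inr ⟨0, by omega⟩)) (Sum.inr ⟨0, by omega⟩)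
  have e3 : ∀ i j, (sg p h.right • MM p m (Multiplicative.toAdd h.left)) i j = 0 := fun i j => by
    have := congrFun (congrFun hr (Sum.inl i)) (Sum.inr j)
    simpa [Matrix.scalar_apply] using this.symm
  simp only [Matrix.scalar_apply, diagonal_apply_eq, fromBlocks_apply₁₁, one_apply_eq,
    fromBlocks_apply₂₂, Matrix.smul_apply, smul_eq_mul, mul_one] at e1 e2
  have hs : h.right = 1 := by
    rcases Int.units_eq_one_or h.right with h1 | h1
    · exact h1
    · exfalso
      rw [h1, sg_neg, e1] at e2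
      apply two_ne p hp
      linear_combination (1 : ZMod p) * e2
  have hM : ∀ i j, MM p m (Multiplicative.toAdd h.left) i j = 0 := by
    intro i j
    have := e3 i j
    rw [hs, sg_one, one_smul] at this
    exact this
  have hv : Multiplicative.toAdd h.left = 0 := by
    funext k
    have a0 := hM 0 ⟨0, by omega⟩
    have a1 := hM ⟨1, by omega⟩ ⟨0, by omega⟩
    have a2 := hM (Fin.last m) ⟨0, by omega⟩
    rw [MM_apply] at a0 a1 a2
    have hm0 : m ≠ 0 := by omega
    have hm1 : m ≠ 1 := by omega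
    simp [Fin.ext_iff, hm0, hm1, Ne.symm hm0, Ne.symm hm1] at a0 a1 a2
    fin_cases k
    · exact a0
    · exact a1
    · exact a2
  apply SemidirectProduct.ext
  · exact toAdd_eq_zero.1 hv
  · exact hs

theorem toeplitz (A : Matrix (Fin (m+1)) (Fin (m+1)) (ZMod p)) (D : Matrix (Fin m) (Fin m) (ZMod p))
    (hX : A * X p m = X p m * D) (hY : A * Y p m = Y p m * D) :
    A = A 0 0 • 1 ∧ D = A 0 0 • 1 := by
  have F1 : ∀ i j, A i.castSucc j.castSucc = D i j := fun i j => by
    have := congrFun (congrFun hX i.castSucc) j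
    simpa [Matrix.mul_apply, X, Fin.castSucc_inj] using this
  have F2 : ∀ j : Fin m, A (Fin.last m) j.castSucc = 0 := fun j => by
    have l1 : (A * X p m) (Fin.last m) j = A (Fin.last m) j.castSucc := by
      simp [Matrix.mul_apply, X]
    have l2 : (X p m * D) (Fin.last m) j = 0 := by
      simp [Matrix.mul_apply, X, Fin.ext_iff, (Fin.is_lt _).ne']
    rw [← l1, hX, l2]
  have F3 : ∀ i j, A i.succ j.succ = D i j := fun i j => by
    have := congrFun (congrFun hY i.succ) j
    simpa [Matrix.mul_apply, Y, Fin.succ_inj] using this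
  have F4 : ∀ j : Fin m, A 0 j.succ = 0 := fun j => by
    have l1 : (A * Y p m) 0 j = A 0 j.succ := by
      simp [Matrix.mul_apply, Y]
    have l2 : (Y p m * D) 0 j = 0 := by
      simp [Matrix.mul_apply, Y, Fin.ext_iff]
    rw [← l1, hY, l2]
  have L1 : ∀ i j : Fin (m+1), i < j → A i j = 0 := by
    intro i
    induction i using Fin.induction with
    | zero =>
      intro j hj
      obtain ⟨j', rfl⟩ := Fin.exists_succ_eq.2 (ne_of_gt hj)
      exact F4 j'
    | succ i ih =>
      intro j hj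
      obtain ⟨j', rfl⟩ := Fin.exists_succ_eq.2 (ne_of_gt (lt_of_le_of_lt (Fin.zero_le _) hj))
      rw [F3, ← F1]
      apply ih
      rw [Fin.succ_lt_succ_iff] at hj
      exact Fin.castSucc_lt_castSucc_iff.2 hj
  have L2 : ∀ i : Fin (m+1), A i i = A 0 0 := by
    intro i
    induction i using Fin.induction with
    | zero => rfl
    | succ i ih => rw [F3, ← F1]; exact ih
  have L3 : ∀ i j : Fin (m+1), j < i → A i j = 0 := by
    intro i
    induction i using Fin.reverseInduction with
    | last =>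
      intro j hj
      obtain ⟨j', rfl⟩ := Fin.exists_castSucc_eq.2 (ne_of_lt hj)
      exact F2 j'
    | cast i ih =>
      intro j hj
      obtain ⟨j', rfl⟩ := Fin.exists_castSucc_eq.2
        (ne_of_lt (lt_of_lt_of_le hj (Fin.le_last _)))
      rw [F1, ← F3]
      apply ih
      rw [Fin.castSucc_lt_castSucc_iff] at hj
      exact Fin.succ_lt_succ_iff.2 hj
  have hA : A = A 0 0 • 1 := by
    ext i j
    rcases lt_trichotomy i j with h | h | h
    · rw [L1 i j h]; simp [Matrix.smul_apply, h.ne]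
    · subst h; rw [L2 i]; simp [Matrix.smul_apply]
    · rw [L3 i j h]; simp [Matrix.smul_apply, h.ne']
  refine ⟨hA, ?_⟩
  ext i j
  rw [← F1, hA]
  simp [Matrix.smul_apply, Matrix.one_apply, Fin.castSucc_inj]

theorem comm_scalar (hp : p ≠ 2)
    (g : Matrix (Fin (m+1) ⊕ Fin m) (Fin (m+1) ⊕ Fin m) (ZMod p))
    (hT : g * TT p m (-1) = TT p m (-1) * g)
    (hX : g * UU p m (X p m) = UU p m (X p m) * g)
    (hY : g * UU p m (Y p m) = UU p m (Y p m) * g) :
    ∃ c : ZMod p, g = c • 1 := by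
  obtain ⟨A, B, C, D, rfl⟩ : ∃ A B C D, g = fromBlocks A B C D :=
    ⟨_, _, _, _, (fromBlocks_toBlocks g).symm⟩
  have h2 := two_ne p hp
  simp only [TT, fromBlocks_multiply, fromBlocks_inj] at hT
  obtain ⟨-, hB, hC, -⟩ := hT
  have hB0 : B = 0 := by
    ext i j
    have := congrFun (congrFun hB i) j
    simp only [Matrix.add_apply, Matrix.mul_zero, Matrix.zero_apply, Matrix.one_mul,
      Matrix.zero_mul, zero_add, add_zero, Matrix.mul_smul, Matrix.mul_one, Matrix.smul_apply,
      smul_eq_mul] at this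
    have h3 : (2 : ZMod p) * B i j = 0 := by linear_combination -this
    rcases mul_eq_zero.1 h3 with h4 | h4
    · exact absurd h4 h2
    · simpa using h4
  have hC0 : C = 0 := by
    ext i j
    have := congrFun (congrFun hC i) j
    simp only [Matrix.add_apply, Matrix.mul_zero, Matrix.zero_apply, Matrix.one_mul,
      Matrix.zero_mul, zero_add, add_zero, Matrix.smul_mul, Matrix.mul_one, Matrix.smul_apply,
      smul_eq_mul] at this
    have h3 : (2 : ZMod p) * C i j = 0 := by linear_combination this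
    rcases mul_eq_zero.1 h3 with h4 | h4
    · exact absurd h4 h2
    · simpa using h4
  subst hB0 hC0
  simp only [UU, fromBlocks_multiply, fromBlocks_inj] at hX hY
  obtain ⟨-, hX, -, -⟩ := hX
  obtain ⟨-, hY, -, -⟩ := hY
  simp only [Matrix.mul_zero, zero_add, add_zero, Matrix.mul_one] at hX hY
  obtain ⟨hA, hD⟩ := toeplitz p m A D hX hY
  refine ⟨A 0 0, ?_⟩
  conv_lhs => rw [hA, hD]
  rw [← fromBlocks_one, fromBlocks_smul]
  simp


theorem rho_inr (hm : Even m) (s : ℤˣ) :
    (rho p m hm (SemidirectProduct.inr s) :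
      Matrix (Fin (m+1) ⊕ Fin m) (Fin (m+1) ⊕ Fin m) (ZMod p)) = TT p m (sg p s) := by
  rw [rho, SemidirectProduct.lift_inr, f2_coe]

theorem rho_inl (hm : Even m) (v : VV p) :
    (rho p m hm (SemidirectProduct.inl v) :
      Matrix (Fin (m+1) ⊕ Fin m) (Fin (m+1) ⊕ Fin m) (ZMod p)) =
        UU p m (MM p m (Multiplicative.toAdd v)) := by
  rw [rho, SemidirectProduct.lift_inl, f1_coe]

theorem MM_single0 : MM p m (Pi.single 0 1) = X p m := by
  simp [MM]

theorem MM_single1 : MM p m (Pi.single 1 1) = Y p m := by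
  simp [MM]

/-- an element of `SL` commuting with the image of `rho` modulo the centre is central. -/
theorem rho_centralizer (hp : p ≠ 2) (hm : Even m) (hmp : (m : ZMod p) = 0)
    (g : Matrix.SpecialLinearGroup (Fin (m+1) ⊕ Fin m) (ZMod p))
    (hg : ∀ h : HH p, (rho p m hm h * g)⁻¹ * (g * rho p m hm h) ∈
      Subgroup.center (Matrix.SpecialLinearGroup (Fin (m+1) ⊕ Fin m) (ZMod p))) :
    g ∈ Subgroup.center (Matrix.SpecialLinearGroup (Fin (m+1) ⊕ Fin m) (ZMod p)) := by
  have key : ∀ h : HH p, (g : Matrix (Fin (m+1) ⊕ Fin m) (Fin (m+1) ⊕ Fin m) (ZMod p)) *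
      (rho p m hm h : Matrix (Fin (m+1) ⊕ Fin m) (Fin (m+1) ⊕ Fin m) (ZMod p)) =
      (rho p m hm h : Matrix (Fin (m+1) ⊕ Fin m) (Fin (m+1) ⊕ Fin m) (ZMod p)) * g := by
    intro h
    have h1 := hg h
    rw [Matrix.SpecialLinearGroup.mem_center_iff] at h1
    obtain ⟨r, -, hr⟩ := h1
    have h2 : (g * rho p m hm h : Matrix.SpecialLinearGroup (Fin (m+1) ⊕ Fin m) (ZMod p)) =
        (rho p m hm h * g) * ((rho p m hm h * g)⁻¹ * (g * rho p m hm h)) := by group
    have h3 : ((g * rho p m hm h : Matrix.SpecialLinearGroup (Fin (m+1) ⊕ Fin m) (ZMod p)) :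
        Matrix (Fin (m+1) ⊕ Fin m) (Fin (m+1) ⊕ Fin m) (ZMod p)) =
        (((rho p m hm h * g) * ((rho p m hm h * g)⁻¹ * (g * rho p m hm h)) :
          Matrix.SpecialLinearGroup (Fin (m+1) ⊕ Fin m) (ZMod p)) :
        Matrix (Fin (m+1) ⊕ Fin m) (Fin (m+1) ⊕ Fin m) (ZMod p)) := congrArg Subtype.val h2
    rw [Matrix.SpecialLinearGroup.coe_mul, Matrix.SpecialLinearGroup.coe_mul (rho p m hm h * g),
      ← hr, Matrix.SpecialLinearGroup.coe_mul] at h3
    -- h3 : g * ρ = (ρ * g) * scalar r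
    have h4 : (g : Matrix (Fin (m+1) ⊕ Fin m) (Fin (m+1) ⊕ Fin m) (ZMod p)) *
        (rho p m hm h : Matrix (Fin (m+1) ⊕ Fin m) (Fin (m+1) ⊕ Fin m) (ZMod p)) =
        r • ((rho p m hm h : Matrix (Fin (m+1) ⊕ Fin m) (Fin (m+1) ⊕ Fin m) (ZMod p)) * g) := by
      rw [h3]
      simp [Matrix.scalar_apply, ← Matrix.smul_eq_mul_diagonal]
    have h5 : trace ((g : Matrix (Fin (m+1) ⊕ Fin m) (Fin (m+1) ⊕ Fin m) (ZMod p)) *
        (rho p m hm h : Matrix (Fin (m+1) ⊕ Fin m) (Fin (m+1) ⊕ Fin m) (ZMod p)) *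
        ((g⁻¹ : Matrix.SpecialLinearGroup (Fin (m+1) ⊕ Fin m) (ZMod p)) :
          Matrix (Fin (m+1) ⊕ Fin m) (Fin (m+1) ⊕ Fin m) (ZMod p))) = 1 := by
      rw [Matrix.trace_mul_comm, ← Matrix.mul_assoc, ← Matrix.SpecialLinearGroup.coe_mul,
        inv_mul_cancel, Matrix.SpecialLinearGroup.coe_one, Matrix.one_mul,
        trace_rho p m hm hmp]
    rw [h4, Matrix.smul_mul, Matrix.mul_assoc, ← Matrix.SpecialLinearGroup.coe_mul,
      mul_inv_cancel, Matrix.SpecialLinearGroup.coe_one, Matrix.mul_one, trace_smul,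
      trace_rho p m hm hmp, smul_eq_mul, mul_one] at h5
    rw [h4, h5, one_smul]
  have hT := key (SemidirectProduct.inr (-1))
  have hX := key (SemidirectProduct.inl (Multiplicative.ofAdd (Pi.single 0 1)))
  have hY := key (SemidirectProduct.inl (Multiplicative.ofAdd (Pi.single 1 1)))
  rw [rho_inr, sg_neg] at hT
  rw [rho_inl, toAdd_ofAdd, MM_single0] at hX
  rw [rho_inl, toAdd_ofAdd, MM_single1] at hY
  obtain ⟨c, hc⟩ := comm_scalar p m hp _ hT hX hY
  rw [Matrix.SpecialLinearGroup.mem_center_iff]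
  refine ⟨c, ?_, ?_⟩
  · have hd := g.2
    rw [hc, det_smul, det_one, mul_one] at hd
    exact hd
  · rw [hc]
    ext i j
    simp [Matrix.scalar_apply, Matrix.smul_apply, Matrix.one_apply, Matrix.diagonal_apply]


/-- reindexing isomorphism of special linear groups. -/
def slReindex {ι κ : Type*} [Fintype ι] [DecidableEq ι] [Fintype κ] [DecidableEq κ]
    (R : Type*) [CommRing R] (e : ι ≃ κ) :
    Matrix.SpecialLinearGroup ι R ≃* Matrix.SpecialLinearGroup κ R where
  toFun g := ⟨Matrix.reindex e e g.1, by rw [Matrix.det_reindex_self]; exact g.2⟩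
  invFun g := ⟨Matrix.reindex e.symm e.symm g.1, by rw [Matrix.det_reindex_self]; exact g.2⟩
  left_inv g := by
    apply Subtype.ext
    ext i j
    simp
  right_inv g := by
    apply Subtype.ext
    ext i j
    simp
  map_mul' a b := by
    apply Subtype.ext
    show Matrix.reindex e e (a.1 * b.1) = Matrix.reindex e e a.1 * Matrix.reindex e e b.1
    simp [Matrix.reindex_apply, Matrix.submatrix_mul_equiv]

theorem center_equiv {G G' : Type*} [Group G] [Group G'] (E : G ≃* G') (x : G) :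
    E x ∈ Subgroup.center G' ↔ x ∈ Subgroup.center G := by
  rw [Subgroup.mem_center_iff, Subgroup.mem_center_iff]
  constructor
  · intro h g
    apply E.injective
    simpa using h (E g)
  · intro h g'
    obtain ⟨g, rfl⟩ := E.surjective g'
    rw [← map_mul, ← map_mul, h g]

/-- a homomorphism into `SL` which is injective modulo the centre and whose image has
trivial centralizer modulo the centre gives an embedding in `PSL` with trivial centralizer. -/
theorem psl_embed {H : Type*} [Group H] {ι : Type*} [Fintype ι] [DecidableEq ι]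
    {R : Type*} [CommRing R] {n : ℕ} (e : ι ≃ Fin n)
    (ρ : H →* Matrix.SpecialLinearGroup ι R)
    (h1 : ∀ h, ρ h ∈ Subgroup.center (Matrix.SpecialLinearGroup ι R) → h = 1)
    (h2 : ∀ g : Matrix.SpecialLinearGroup ι R,
      (∀ h, (ρ h * g)⁻¹ * (g * ρ h) ∈ Subgroup.center (Matrix.SpecialLinearGroup ι R)) →
        g ∈ Subgroup.center (Matrix.SpecialLinearGroup ι R)) :
    ∃ φ : H →* Matrix.ProjectiveSpecialLinearGroup (Fin n) R, Function.Injective φ ∧
      Subgroup.centralizer
        (φ.range : Set (Matrix.ProjectiveSpecialLinearGroup (Fin n) R)) = ⊥ := by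
  let E := slReindex R e
  refine ⟨(QuotientGroup.mk' (Subgroup.center (Matrix.SpecialLinearGroup (Fin n) R))).comp
    (E.toMonoidHom.comp ρ), ?_, ?_⟩
  · rw [injective_iff_map_eq_one]
    intro h hh
    apply h1
    rw [← center_equiv E]
    exact (QuotientGroup.eq_one_iff _).1 hh
  · rw [eq_bot_iff]
    intro x hx
    obtain ⟨g', rfl⟩ := QuotientGroup.mk_surjective x
    rw [Subgroup.mem_bot, QuotientGroup.eq_one_iff]
    obtain ⟨g, rfl⟩ := E.surjective g'
    rw [center_equiv E]
    apply h2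
    intro h
    have h3 := hx _ ⟨h, rfl⟩
    rw [← center_equiv E]
    simp only [map_mul, map_inv]
    exact QuotientGroup.eq.1 h3

end Cfsg.Agent.Lib.Helper14.Dih3
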