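import Mathlib

set_option autoImplicit false

namespace Cfsg.Agent.Lib.Helper14.NoSharp

/-- Abstract double counting: a set of permutations, each mapping `1` mod `q` points of a
set `Hf` (of size `1` mod `q`, missing a point `a`) into `Hf`, on a set of size `1` mod `q`,
is not sharply `2`-transitive. -/
theorem no_sharp {Ω : Type*} [Fintype Ω] [DecidableEq Ω] (q : ℕ) (hq : 1 < q)
    (S : Set (Equiv.Perm Ω)) (Hf : Finset Ω) (a b₀ : Ω) (haH : a ∉ Hf) (hab₀ : a ≠ b₀)
    (hΩ : ((Fintype.card Ω : ℕ) : ZMod q) = 1) (hHf : ((Hf.card : ℕ) : ZMod q) = 1)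
    (hA : ∀ s ∈ S, (((Hf.filter (fun b => s b ∈ Hf)).card : ℕ) : ZMod q) = 1) :
    ¬ (∀ a b c d : Ω, a ≠ b → c ≠ d → ∃! s, s ∈ S ∧ s a = c ∧ s b = d) := by
  classical
  intro h
  have : Fact (1 < q) := ⟨hq⟩
  let T : Finset (Equiv.Perm Ω) := Finset.univ.filter (fun s => s ∈ S ∧ s a = a)
  have hmemT : ∀ s, s ∈ T ↔ s ∈ S ∧ s a = a := fun s => by simp [T]
  have hT : ((T.card : ℕ) : ZMod q) = 0 := by
    have h1 : T.card = (Finset.univ.erase a).card := by
      apply Finset.card_bij (fun s _ => s b₀)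
      · intro s hs
        rw [hmemT] at hs
        rw [Finset.mem_erase]
        refine ⟨?_, Finset.mem_univ _⟩
        intro hh
        apply hab₀
        apply s.injective
        rw [hs.2, hh]
      · intro s hs s' hs' hss
        rw [hmemT] at hs hs'
        have hne : a ≠ s b₀ := by
          intro hh
          apply hab₀
          apply s.injective
          rw [hs.2, ← hh]
        exact (h a b₀ a (s b₀) hab₀ hne).unique ⟨hs.1, hs.2, rfl⟩ ⟨hs'.1, hs'.2, hss.symm⟩
      · intro c hc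
        rw [Finset.mem_erase] at hc
        obtain ⟨s, ⟨hs1, hs2, hs3⟩, -⟩ := h a b₀ a c hab₀ (Ne.symm hc.1)
        exact ⟨s, (hmemT s).2 ⟨hs1, hs2⟩, hs3⟩
    have h2 : T.card + 1 = Fintype.card Ω := by
      rw [h1, Finset.card_erase_of_mem (Finset.mem_univ a), Finset.card_univ]
      have : 0 < Fintype.card Ω := Fintype.card_pos_iff.2 ⟨a⟩
      omega
    rw [← h2] at hΩ
    push_cast at hΩ
    simpa using hΩ
  have hB : ∀ b ∈ Hf, (T.filter (fun s => s b ∈ Hf)).card = Hf.card := by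
    intro b hb
    have hab : a ≠ b := fun hh => haH (hh ▸ hb)
    apply Finset.card_bij (fun s _ => s b)
    · intro s hs
      exact (Finset.mem_filter.1 hs).2
    · intro s hs s' hs' hss
      rw [Finset.mem_filter, hmemT] at hs hs'
      have hne : a ≠ s b := fun hh => haH (hh ▸ hs.2)
      exact (h a b a (s b) hab hne).unique ⟨hs.1.1, hs.1.2, rfl⟩ ⟨hs'.1.1, hs'.1.2, hss.symm⟩
    · intro c hc
      have hne : a ≠ c := fun hh => haH (hh ▸ hc)
      obtain ⟨s, ⟨hs1, hs2, hs3⟩, -⟩ := h a b a c hab hne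
      refine ⟨s, ?_, hs3⟩
      rw [Finset.mem_filter, hmemT]
      exact ⟨⟨hs1, hs2⟩, hs3 ▸ hc⟩
  have hcount : ∑ s ∈ T, (Hf.filter (fun b => s b ∈ Hf)).card =
      ∑ b ∈ Hf, (T.filter (fun s => s b ∈ Hf)).card := by
    simp only [Finset.card_filter]
    exact Finset.sum_comm
  have hc2 := congrArg (fun k : ℕ => (k : ZMod q)) hcount
  simp only [Nat.cast_sum] at hc2
  have e1 : ∑ s ∈ T, (((Hf.filter (fun b => s b ∈ Hf)).card : ℕ) : ZMod q) =
      ∑ s ∈ T, (1 : ZMod q) :=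
    Finset.sum_congr rfl (fun s hs => hA s ((hmemT s).1 hs).1)
  have e2 : ∑ b ∈ Hf, (((T.filter (fun s => s b ∈ Hf)).card : ℕ) : ZMod q) =
      ∑ b ∈ Hf, ((Hf.card : ℕ) : ZMod q) :=
    Finset.sum_congr rfl (fun b hb => by rw [hB b hb])
  rw [e1, e2, Finset.sum_const, Finset.sum_const, nsmul_eq_mul, nsmul_eq_mul, hT, hHf] at hc2
  simp at hc2

end Cfsg.Agent.Lib.Helper14.NoSharp
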