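import Mathlib
import Cfsg.Prelude.Def_LinearParabolics

/-!
# Counting invertible block-triangular matrices; order of the standard parabolic subgroups of GL_n
-/

set_option autoImplicit false

namespace Cfsg.Agent.Lib.Helper14.ParabCount

open Matrix

section generic

variable {ι α F : Type*} [Fintype ι] [DecidableEq ι] [Fintype α] [LinearOrder α] [Field F]

/-- the matrix with prescribed diagonal blocks and strictly upper entries -/
noncomputable def mkM (b : ι → α)
    (X : ((a : α) → {N : Matrix {i // b i = a} {i // b i = a} F // N.det ≠ 0}) ×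
        ({p : ι × ι // b p.1 < b p.2} → F)) : Matrix ι ι F :=
  Matrix.of fun i j => if h : b i = b j then (X.1 (b i)).1 ⟨i, rfl⟩ ⟨j, h.symm⟩
      else if h2 : b i < b j then X.2 ⟨(i, j), h2⟩ else 0

omit [Fintype α] in
theorem mkM_bt (b : ι → α)
    (X : ((a : α) → {N : Matrix {i // b i = a} {i // b i = a} F // N.det ≠ 0}) ×
        ({p : ι × ι // b p.1 < b p.2} → F)) : (mkM b X).BlockTriangular b := by
  intro i j hlt
  unfold mkM
  rw [Matrix.of_apply, dif_neg (ne_of_gt hlt), dif_neg (not_lt.mpr hlt.le)]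

omit [Fintype α] in
theorem mkM_block (b : ι → α)
    (X : ((a : α) → {N : Matrix {i // b i = a} {i // b i = a} F // N.det ≠ 0}) ×
        ({p : ι × ι // b p.1 < b p.2} → F)) (a : α) :
    (mkM b X).toSquareBlock b a = (X.1 a).1 := by
  ext ⟨i, hi⟩ ⟨j, hj⟩
  subst hi
  rw [Matrix.toSquareBlock_def, Matrix.of_apply]
  unfold mkM
  rw [Matrix.of_apply, dif_pos hj.symm]

theorem mkM_det (b : ι → α)
    (X : ((a : α) → {N : Matrix {i // b i = a} {i // b i = a} F // N.det ≠ 0}) ×
        ({p : ι × ι // b p.1 < b p.2} → F)) : (mkM b X).det ≠ 0 := by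
  rw [(mkM_bt b X).det_fintype, Finset.prod_ne_zero_iff]
  intro a _
  rw [mkM_block]
  exact (X.1 a).2

/-- invertible block-triangular matrices ≃ invertible diagonal blocks × strictly upper entries -/
noncomputable def btEquiv (b : ι → α) :
    {M : Matrix ι ι F // M.BlockTriangular b ∧ M.det ≠ 0} ≃
      ((a : α) → {N : Matrix {i // b i = a} {i // b i = a} F // N.det ≠ 0}) ×
        ({p : ι × ι // b p.1 < b p.2} → F) where
  toFun M := (fun a => ⟨M.1.toSquareBlock b a, by
      have h := M.2.1.det_fintype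
      intro h0
      apply M.2.2
      rw [h]
      exact Finset.prod_eq_zero (Finset.mem_univ a) h0⟩, fun p => M.1 p.1.1 p.1.2)
  invFun X := ⟨mkM b X, mkM_bt b X, mkM_det b X⟩
  left_inv M := by
    apply Subtype.ext
    ext i j
    show mkM b _ i j = M.1 i j
    unfold mkM
    rw [Matrix.of_apply]
    by_cases h : b i = b j
    · rw [dif_pos h]
      show (M.1.toSquareBlock b (b i)) ⟨i, rfl⟩ ⟨j, h.symm⟩ = M.1 i j
      rw [Matrix.toSquareBlock_def, Matrix.of_apply]
    · rw [dif_neg h]
      by_cases h2 : b i < b j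
      · rw [dif_pos h2]
      · rw [dif_neg h2]
        have h3 : b j < b i := lt_of_le_of_ne (not_lt.mp h2) (Ne.symm h)
        exact (M.2.1 h3).symm
  right_inv X := by
    apply Prod.ext
    · funext a
      apply Subtype.ext
      exact mkM_block b X a
    · funext p
      show mkM b X p.1.1 p.1.2 = X.2 p
      unfold mkM
      rw [Matrix.of_apply, dif_neg (ne_of_lt p.2), dif_pos p.2]

theorem card_bt [Finite F] (b : ι → α) :
    Nat.card {M : Matrix ι ι F // M.BlockTriangular b ∧ M.det ≠ 0} =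
      (∏ a : α, Nat.card {N : Matrix {i // b i = a} {i // b i = a} F // N.det ≠ 0}) *
        Nat.card F ^ Nat.card {p : ι × ι // b p.1 < b p.2} := by
  rw [Nat.card_congr (btEquiv b), Nat.card_prod, Nat.card_pi, Nat.card_fun]

/-- `GL` as a subtype of matrices -/
noncomputable def glEquiv (κ : Type*) [Fintype κ] [DecidableEq κ] :
    GL κ F ≃ {N : Matrix κ κ F // N.det ≠ 0} where
  toFun g := ⟨g.1, ((Matrix.isUnit_iff_isUnit_det _).mp g.isUnit).ne_zero⟩
  invFun N := Matrix.GeneralLinearGroup.mk'' N.1 (isUnit_iff_ne_zero.mpr N.2)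
  left_inv g := by
    apply Units.ext
    rfl
  right_inv N := rfl

theorem card_det_ne_zero [Fintype F] (κ : Type*) [Fintype κ] [DecidableEq κ] :
    Nat.card {N : Matrix κ κ F // N.det ≠ 0} =
      ∏ i : Fin (Nat.card κ), (Fintype.card F ^ (Nat.card κ) - Fintype.card F ^ (i : ℕ)) := by
  have e : κ ≃ Fin (Nat.card κ) := Finite.equivFin κ
  have e2 : {N : Matrix κ κ F // N.det ≠ 0} ≃
      {N : Matrix (Fin (Nat.card κ)) (Fin (Nat.card κ)) F // N.det ≠ 0} :=
    (Matrix.reindex e e).subtypeEquiv (fun N => by rw [Matrix.det_reindex_self])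
  rw [Nat.card_congr e2, ← Nat.card_congr (glEquiv (F := F) (Fin (Nat.card κ))),
    Matrix.card_GL_field]

/-- a subgroup of `GL` cut out by block-triangularity, as a subtype of matrices -/
noncomputable def parEquiv (b : ι → α) (P : Subgroup (GL ι F))
    (hP : ∀ g : GL ι F, g ∈ P ↔ (g : Matrix ι ι F).BlockTriangular b) :
    P ≃ {M : Matrix ι ι F // M.BlockTriangular b ∧ M.det ≠ 0} where
  toFun g := ⟨g.1.1, (hP g.1).mp g.2, ((Matrix.isUnit_iff_isUnit_det _).mp g.1.isUnit).ne_zero⟩
  invFun M := ⟨Matrix.GeneralLinearGroup.mk'' M.1 (isUnit_iff_ne_zero.mpr M.2.2),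
    (hP _).mpr M.2.1⟩
  left_inv g := by
    apply Subtype.ext
    apply Units.ext
    rfl
  right_inv M := rfl

theorem card_par [Fintype F] (b : ι → α) (P : Subgroup (GL ι F))
    (hP : ∀ g : GL ι F, g ∈ P ↔ (g : Matrix ι ι F).BlockTriangular b) :
    Nat.card P = (∏ a : α, ∏ i : Fin (Nat.card {i // b i = a}),
        (Fintype.card F ^ (Nat.card {i // b i = a}) - Fintype.card F ^ (i : ℕ))) *
        Fintype.card F ^ Nat.card {p : ι × ι // b p.1 < b p.2} := by
  rw [Nat.card_congr (parEquiv b P hP), card_bt, Nat.card_eq_fintype_card (α := F)]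
  congr 1
  apply Finset.prod_congr rfl
  intro a _
  exact card_det_ne_zero _

/-- pairs with equal labels -/
def eqPairEquiv (b : ι → α) :
    {p : ι × ι // b p.1 = b p.2} ≃ Σ a : α, {i // b i = a} × {i // b i = a} where
  toFun p := ⟨b p.1.1, ⟨p.1.1, rfl⟩, ⟨p.1.2, p.2.symm⟩⟩
  invFun x := ⟨(x.2.1.1, x.2.2.1), x.2.1.2.trans x.2.2.2.symm⟩
  left_inv p := rfl
  right_inv x := by
    obtain ⟨a, ⟨i, hi⟩, ⟨j, hj⟩⟩ := x
    subst hi
    rfl

omit [DecidableEq ι] in
theorem pair_count (b : ι → α) :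
    2 * Nat.card {p : ι × ι // b p.1 < b p.2} + ∑ a : α, (Nat.card {i // b i = a}) ^ 2 =
      (Nat.card ι) ^ 2 := by
  classical
  have h1 : Nat.card {p : ι × ι // b p.1 = b p.2} = ∑ a : α, (Nat.card {i // b i = a}) ^ 2 := by
    rw [Nat.card_congr (eqPairEquiv b), Nat.card_sigma]
    apply Finset.sum_congr rfl
    intro a _
    rw [Nat.card_prod, sq]
  have h2 : Nat.card {p : ι × ι // b p.2 < b p.1} = Nat.card {p : ι × ι // b p.1 < b p.2} := by
    apply Nat.card_congr
    exact (Equiv.prodComm ι ι).subtypeEquiv (fun p => Iff.rfl)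
  have h3 : Nat.card (ι × ι) = (Nat.card ι) ^ 2 := by rw [Nat.card_prod, sq]
  rw [← h1, ← h3]
  have key : ∀ p : ι × ι, (if b p.1 < b p.2 then 1 else 0) + (if b p.2 < b p.1 then 1 else 0) +
      (if b p.1 = b p.2 then 1 else 0) = (1 : ℕ) := by
    intro p
    rcases lt_trichotomy (b p.1) (b p.2) with h | h | h
    · rw [if_pos h, if_neg (not_lt.mpr h.le), if_neg (ne_of_lt h)]
    · rw [if_neg (by rw [h]; exact lt_irrefl _), if_neg (by rw [h]; exact lt_irrefl _), if_pos h]
    · rw [if_neg (not_lt.mpr h.le), if_pos h, if_neg (ne_of_gt h)]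
  have hsum : ∑ p : ι × ι, ((if b p.1 < b p.2 then 1 else 0) + (if b p.2 < b p.1 then 1 else 0) +
      (if b p.1 = b p.2 then 1 else 0) : ℕ) = Nat.card (ι × ι) := by
    rw [Finset.sum_congr rfl (fun p _ => key p), Finset.sum_const, Finset.card_univ,
      Nat.card_eq_fintype_card, smul_eq_mul, mul_one]
  rw [Finset.sum_add_distrib, Finset.sum_add_distrib] at hsum
  have c1 : ∑ p : ι × ι, (if b p.1 < b p.2 then 1 else 0 : ℕ) =
      Nat.card {p : ι × ι // b p.1 < b p.2} := by
    rw [Nat.card_eq_fintype_card, Fintype.card_subtype, Finset.card_filter]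
  have c2 : ∑ p : ι × ι, (if b p.2 < b p.1 then 1 else 0 : ℕ) =
      Nat.card {p : ι × ι // b p.2 < b p.1} := by
    rw [Nat.card_eq_fintype_card, Fintype.card_subtype, Finset.card_filter]
  have c3 : ∑ p : ι × ι, (if b p.1 = b p.2 then 1 else 0 : ℕ) =
      Nat.card {p : ι × ι // b p.1 = b p.2} := by
    rw [Nat.card_eq_fintype_card, Fintype.card_subtype, Finset.card_filter]
  rw [c1, c2, c3, h2] at hsum
  omega

end generic

section arith

/-- the `q`-factorial -/
def Qf (q m : ℕ) : ℕ := ∏ j ∈ Finset.range m, ∑ l ∈ Finset.range (j + 1), q ^ l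

theorem geom (r k : ℕ) : (∑ l ∈ Finset.range k, (r + 1) ^ l) * r + 1 = (r + 1) ^ k := by
  induction k with
  | zero => simp
  | succ k ih =>
    rw [Finset.sum_range_succ, add_mul, pow_succ]
    have : (∑ l ∈ Finset.range k, (r + 1) ^ l) * r + (r + 1) ^ k * r + 1 =
        ((∑ l ∈ Finset.range k, (r + 1) ^ l) * r + 1) + (r + 1) ^ k * r := by ring
    rw [this, ih]
    ring

theorem gl_eq (q m : ℕ) (hq : 1 ≤ q) :
    ∏ i : Fin m, (q ^ m - q ^ (i : ℕ)) =
      q ^ (∑ i ∈ Finset.range m, i) * (q - 1) ^ m * Qf q m := by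
  obtain ⟨r, rfl⟩ : ∃ r, q = r + 1 := ⟨q - 1, by omega⟩
  rw [Fin.prod_univ_eq_prod_range (fun i => (r + 1) ^ m - (r + 1) ^ i) m]
  have h1 : ∀ i ∈ Finset.range m, (r + 1) ^ m - (r + 1) ^ i =
      (r + 1) ^ i * (r * ∑ l ∈ Finset.range (m - 1 - i + 1), (r + 1) ^ l) := by
    intro i hi
    rw [Finset.mem_range] at hi
    have e : m - 1 - i + 1 = m - i := by omega
    rw [e]
    have h2 := geom r (m - i)
    have h3 : (r + 1) ^ m = (r + 1) ^ i * (r + 1) ^ (m - i) := by
      rw [← pow_add]
      congr 1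
      omega
    rw [h3, ← h2]
    have : (r + 1) ^ i * ((∑ l ∈ Finset.range (m - i), (r + 1) ^ l) * r + 1) =
        (r + 1) ^ i * (r * ∑ l ∈ Finset.range (m - i), (r + 1) ^ l) + (r + 1) ^ i := by ring
    rw [this, Nat.add_sub_cancel]
  rw [Finset.prod_congr rfl h1, Finset.prod_mul_distrib, Finset.prod_mul_distrib,
    Finset.prod_pow_eq_pow_sum, Finset.prod_const, Finset.card_range,
    Finset.prod_range_reflect (fun j => ∑ l ∈ Finset.range (j + 1), (r + 1) ^ l) m]
  unfold Qf
  rw [Nat.add_sub_cancel]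
  ring

end arith

section complabel

variable {n : ℕ}

/-- partial sums of the composition -/
def S (μ : Fin n → ℕ) (a : ℕ) : ℕ := ∑ k ∈ Finset.univ.filter (fun k : Fin n => k.val < a), μ k

theorem S_mono (μ : Fin n → ℕ) {a a' : ℕ} (h : a ≤ a') : S μ a ≤ S μ a' := by
  unfold S
  apply Finset.sum_le_sum_of_subset
  intro k hk
  rw [Finset.mem_filter] at hk ⊢
  exact ⟨hk.1, lt_of_lt_of_le hk.2 h⟩

theorem S_zero (μ : Fin n → ℕ) : S μ 0 = 0 := by
  unfold S
  apply Finset.sum_eq_zero
  intro k hk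
  rw [Finset.mem_filter] at hk
  exact absurd hk.2 (Nat.not_lt_zero _)

theorem S_succ (μ : Fin n → ℕ) (a : Fin n) : S μ (a.val + 1) = S μ a.val + μ a := by
  unfold S
  have h : Finset.univ.filter (fun k : Fin n => k.val < a.val + 1) =
      insert a (Finset.univ.filter (fun k : Fin n => k.val < a.val)) := by
    ext k
    rw [Finset.mem_insert, Finset.mem_filter, Finset.mem_filter]
    constructor
    · rintro ⟨_, h⟩
      by_cases hk : k = a
      · exact Or.inl hk
      · right
        refine ⟨Finset.mem_univ _, ?_⟩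
        have : k.val ≠ a.val := fun h => hk (Fin.ext h)
        omega
    · rintro (h | h)
      · subst h
        exact ⟨Finset.mem_univ _, Nat.lt_succ_self _⟩
      · exact ⟨Finset.mem_univ _, Nat.lt_succ_of_lt h.2⟩
  rw [h, Finset.sum_insert, add_comm]
  rw [Finset.mem_filter]
  exact fun h => lt_irrefl _ h.2

theorem S_top (μ : Fin n → ℕ) : S μ n = ∑ i, μ i := by
  unfold S
  congr 1
  ext k
  simp

theorem compLabel_eq (μ : Fin n → ℕ) (i : Fin n) :
    Cfsg.compLabel μ i = (Finset.univ.filter fun j : Fin n => S μ (j.val + 1) ≤ i.val).card := by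
  unfold Cfsg.compLabel S
  congr 1
  apply Finset.filter_congr
  intro j _
  have : Finset.univ.filter (fun k : Fin n => k ≤ j) =
      Finset.univ.filter (fun k : Fin n => k.val < j.val + 1) := by
    apply Finset.filter_congr
    intro k _
    rw [Fin.le_def]
    omega
  rw [this]

theorem compLabel_of (μ : Fin n → ℕ) (i a : Fin n) (h1 : S μ a.val ≤ i.val)
    (h2 : i.val < S μ (a.val + 1)) : Cfsg.compLabel μ i = a.val := by
  rw [compLabel_eq]
  have h : (Finset.univ.filter fun j : Fin n => S μ (j.val + 1) ≤ i.val) =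
      Finset.univ.filter (fun j : Fin n => j.val < a.val) := by
    apply Finset.filter_congr
    intro j _
    constructor
    · intro hj
      by_contra hlt
      have : S μ (a.val + 1) ≤ S μ (j.val + 1) := S_mono μ (by omega)
      omega
    · intro hj
      have : S μ (j.val + 1) ≤ S μ a.val := S_mono μ (by omega)
      omega
  rw [h, Fin.card_filter_val_lt]
  exact min_eq_right a.2.le

theorem exists_a (μ : Fin n → ℕ) (hμ : ∑ i, μ i = n) (i : Fin n) :
    ∃ a : Fin n, S μ a.val ≤ i.val ∧ i.val < S μ (a.val + 1) := by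
  have hn : 0 < n := lt_of_le_of_lt (Nat.zero_le _) i.2
  have hex : ∃ a, i.val < S μ (a + 1) := by
    refine ⟨n - 1, ?_⟩
    have : n - 1 + 1 = n := by omega
    rw [this, S_top, hμ]
    exact i.2
  classical
  have hmin : ∀ m, m < Nat.find hex → ¬ (i.val < S μ (m + 1)) := fun m hm => Nat.find_min hex hm
  have hspec := Nat.find_spec hex
  have hle : Nat.find hex ≤ n - 1 := Nat.find_min' hex (by
    have : n - 1 + 1 = n := by omega
    rw [this, S_top, hμ]
    exact i.2)
  refine ⟨⟨Nat.find hex, by omega⟩, ?_, hspec⟩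
  show S μ (Nat.find hex) ≤ i.val
  by_cases h0 : Nat.find hex = 0
  · rw [h0, S_zero]
    exact Nat.zero_le _
  · have := hmin (Nat.find hex - 1) (by omega)
    have e : Nat.find hex - 1 + 1 = Nat.find hex := by omega
    rw [e] at this
    omega

theorem compLabel_lt (μ : Fin n → ℕ) (hμ : ∑ i, μ i = n) (i : Fin n) : Cfsg.compLabel μ i < n := by
  obtain ⟨a, h1, h2⟩ := exists_a μ hμ i
  rw [compLabel_of μ i a h1 h2]
  exact a.2

theorem compLabel_iff (μ : Fin n → ℕ) (hμ : ∑ i, μ i = n) (i a : Fin n) :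
    Cfsg.compLabel μ i = a.val ↔ S μ a.val ≤ i.val ∧ i.val < S μ (a.val + 1) := by
  constructor
  · intro h
    obtain ⟨a0, h1, h2⟩ := exists_a μ hμ i
    have := compLabel_of μ i a0 h1 h2
    have e : a = a0 := Fin.ext (by omega)
    rw [e]
    exact ⟨h1, h2⟩
  · rintro ⟨h1, h2⟩
    exact compLabel_of μ i a h1 h2

theorem card_fiber (μ : Fin n → ℕ) (hμ : ∑ i, μ i = n) (a : Fin n) :
    Nat.card {i : Fin n // Cfsg.compLabel μ i = a.val} = μ a := by
  classical
  rw [Nat.card_eq_fintype_card, Fintype.card_subtype]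
  have hle : S μ (a.val + 1) ≤ n := by
    have := S_mono μ (show a.val + 1 ≤ n from a.2)
    rwa [S_top, hμ] at this
  have h : (Finset.univ.filter fun i : Fin n => Cfsg.compLabel μ i = a.val).map Fin.valEmbedding =
      Finset.Ico (S μ a.val) (S μ (a.val + 1)) := by
    ext x
    rw [Finset.mem_map, Finset.mem_Ico]
    constructor
    · rintro ⟨i, hi, rfl⟩
      rw [Finset.mem_filter] at hi
      exact (compLabel_iff μ hμ i a).mp hi.2
    · rintro ⟨h1, h2⟩
      refine ⟨⟨x, by omega⟩, ?_, rfl⟩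
      rw [Finset.mem_filter]
      exact ⟨Finset.mem_univ _, (compLabel_iff μ hμ _ a).mpr ⟨h1, h2⟩⟩
  rw [← Finset.card_map Fin.valEmbedding, h, Nat.card_Ico, S_succ]
  omega

end complabel

section main

variable {F : Type*} [Field F] [Fintype F] {n : ℕ}

/-- the order of the standard parabolic subgroup -/
theorem card_parabolic (μ : Fin n → ℕ) (hμ : ∑ i, μ i = n) :
    ∃ s : ℕ, 2 * s + ∑ a : Fin n, (μ a) ^ 2 = n ^ 2 ∧
      Nat.card (Cfsg.parabolicGL n F μ) =
        (∏ a : Fin n, ∏ i : Fin (μ a), (Fintype.card F ^ (μ a) - Fintype.card F ^ (i : ℕ))) *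
          Fintype.card F ^ s := by
  let b : Fin n → Fin n := fun i => ⟨Cfsg.compLabel μ i, compLabel_lt μ hμ i⟩
  have hP : ∀ g : GL (Fin n) F, g ∈ Cfsg.parabolicGL n F μ ↔
      (g : Matrix (Fin n) (Fin n) F).BlockTriangular b := by
    intro g
    exact Iff.rfl
  have hfib : ∀ a : Fin n, Nat.card {i : Fin n // b i = a} = μ a := by
    intro a
    rw [← card_fiber μ hμ a]
    apply Nat.card_congr
    exact Equiv.subtypeEquivRight (fun i => by
      show b i = a ↔ _
      rw [Fin.ext_iff])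
  refine ⟨Nat.card {p : Fin n × Fin n // b p.1 < b p.2}, ?_, ?_⟩
  · have h := pair_count b
    rw [Nat.card_eq_fintype_card (α := Fin n), Fintype.card_fin] at h
    rw [← h]
    congr 1
    apply Finset.sum_congr rfl
    intro a _
    rw [hfib a]
  · rw [card_par b _ hP]
    congr 1
    apply Finset.prod_congr rfl
    intro a _
    rw [hfib a]

end main

end Cfsg.Agent.Lib.Helper14.ParabCount
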