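import Mathlib

set_option autoImplicit false

namespace Cfsg.Agent.Lib.Helper14.ProjPts

open scoped LinearAlgebra.Projectivization

/-- The number of points of the projective space lying in a nonzero subspace is `1` mod `q`. -/
theorem card_pts_modEq {F : Type*} [Field F] [Finite F] {V : Type*} [AddCommGroup V] [Module F V]
    [Finite V] (K : Submodule F V) (hK : K ≠ ⊥) :
    Nat.card {x : ℙ F V // x.submodule ≤ K} ≡ 1 [MOD Nat.card F] := by
  classical
  let ι : ℙ F K → ℙ F V := Projectivization.map K.subtype K.injective_subtype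
  have hι : Function.Injective ι := Projectivization.map_injective _ _
  have hrange : ∀ x : ℙ F V, x.submodule ≤ K ↔ x ∈ Set.range ι := by
    intro x
    induction x using Projectivization.ind with
    | h v hv =>
      rw [Projectivization.submodule_mk, Submodule.span_singleton_le_iff_mem]
      constructor
      · intro hvK
        refine ⟨Projectivization.mk F ⟨v, hvK⟩ (by simpa [Subtype.ext_iff] using hv), ?_⟩
        simp [ι, Projectivization.map_mk]
      · rintro ⟨y, hy⟩
        induction y using Projectivization.ind with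
        | h w hw =>
          simp only [ι, Projectivization.map_mk] at hy
          rw [Projectivization.mk_eq_mk_iff] at hy
          obtain ⟨a, ha⟩ := hy
          have hv' : v = ((a⁻¹ : Fˣ) : F) • (w : V) := by
            rw [← Units.smul_def, ← Submodule.subtype_apply, ← ha, inv_smul_smul]
          rw [hv']
          exact K.smul_mem _ w.2
  have hcard : Nat.card {x : ℙ F V // x.submodule ≤ K} = Nat.card (ℙ F K) := by
    rw [Nat.card_congr (Equiv.subtypeEquivRight hrange)]
    exact (Nat.card_congr (Equiv.ofInjective ι hι)).symm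
  rw [hcard]
  have h1 := Projectivization.card' F K
  have h2 : Nat.card K = Nat.card F ^ Module.finrank F K := Module.natCard_eq_pow_finrank
  have h3 : 0 < Module.finrank F K := by
    have : Nontrivial K := (Submodule.nontrivial_iff_ne_bot).2 hK
    exact Module.finrank_pos
  have hq : 1 < Nat.card F := Finite.one_lt_card
  obtain ⟨d, hd⟩ : ∃ d, Module.finrank F K = d + 1 := ⟨_, (Nat.succ_pred_eq_of_pos h3).symm⟩
  rw [h2, hd, pow_succ] at h1
  obtain ⟨q', hq'⟩ : ∃ q', Nat.card F = q' + 1 :=
    ⟨_, (Nat.succ_pred_eq_of_pos (by omega)).symm⟩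
  rw [hq'] at h1 ⊢
  simp only [Nat.add_sub_cancel] at h1
  have h4 : Nat.card (ℙ F K) + (q' + 1) ^ d * (q' + 1) =
      1 + Nat.card (ℙ F K) * (q' + 1) := by rw [h1]; ring
  have h5 := congrArg (· % (q' + 1)) h4
  simp only [Nat.add_mul_mod_self_right] at h5
  exact h5

/-- Finset/`ZMod` form. -/
theorem card_filter_pts {F : Type*} [Field F] [Finite F] {V : Type*} [AddCommGroup V]
    [Module F V] [Finite V] [Fintype (ℙ F V)] (K : Submodule F V) (hK : K ≠ ⊥)
    [DecidablePred fun x : ℙ F V => x.submodule ≤ K] :
    (((Finset.univ.filter (fun x : ℙ F V => x.submodule ≤ K)).card : ℕ) : ZMod (Nat.card F))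
      = 1 := by
  have h := card_pts_modEq K hK
  have e : Nat.card {x : ℙ F V // x.submodule ≤ K} =
      (Finset.univ.filter (fun x : ℙ F V => x.submodule ≤ K)).card := by
    rw [Nat.card_eq_fintype_card, Fintype.card_subtype]
  rw [e] at h
  have h' := (ZMod.natCast_eq_natCast_iff _ _ _).2 h
  rw [h']
  simp

end Cfsg.Agent.Lib.Helper14.ProjPts
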