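import Mathlib
import Cfsg.Agent.Lib.Helper13.GL2Ind

set_option autoImplicit false

namespace Cfsg.Agent.Lib.Helper14.SL2Ind

open scoped ComplexConjugate
open Cfsg.Agent.Lib.Helper1

universe u

variable {F : Type u} [Field F]

theorem mem_bor_iff (x : Matrix.SpecialLinearGroup (Fin 2) F) :
    x ∈ (Cfsg.upperTriangularGL 2 F).comap Matrix.SpecialLinearGroup.toGL ↔
      (x : Matrix (Fin 2) (Fin 2) F) 1 0 = 0 := by
  rw [Subgroup.mem_comap, Cfsg.Agent.S2308.mem_B_iff]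
  rfl

theorem bor_diag (b : ↥((Cfsg.upperTriangularGL 2 F).comap Matrix.SpecialLinearGroup.toGL)) :
    ((b : Matrix.SpecialLinearGroup (Fin 2) F) : Matrix (Fin 2) (Fin 2) F) 0 0 *
      ((b : Matrix.SpecialLinearGroup (Fin 2) F) : Matrix (Fin 2) (Fin 2) F) 1 1 = 1 := by
  have hdet := (b : Matrix.SpecialLinearGroup (Fin 2) F).det_coe
  have h10 := (mem_bor_iff b.1).mp b.2
  rw [Matrix.det_fin_two, h10, mul_zero, sub_zero] at hdet
  exact hdet

theorem theta_isClass (α : MulChar F ℂ) :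
    Cfsg.IsClassFunction ↥((Cfsg.upperTriangularGL 2 F).comap Matrix.SpecialLinearGroup.toGL)
      (fun b => α (((b : Matrix.SpecialLinearGroup (Fin 2) F) : Matrix (Fin 2) (Fin 2) F) 0 0)) := by
  intro g h
  have hg := (mem_bor_iff g.1).mp g.2
  have hh := (mem_bor_iff h.1).mp h.2
  have hdet := bor_diag h
  show α ((((h * g * h⁻¹ : ↥((Cfsg.upperTriangularGL 2 F).comap Matrix.SpecialLinearGroup.toGL)) :
    Matrix.SpecialLinearGroup (Fin 2) F) : Matrix (Fin 2) (Fin 2) F) 0 0) = _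
  congr 1
  simp only [Subgroup.coe_mul, Subgroup.coe_inv, Matrix.SpecialLinearGroup.coe_mul,
    Matrix.SpecialLinearGroup.coe_inv, Matrix.adjugate_fin_two, Matrix.mul_apply, Fin.sum_univ_two,
    Matrix.of_apply, Matrix.cons_val', Matrix.cons_val_zero, Matrix.cons_val_one, hg, hh]
  simp
  linear_combination (((g : Matrix.SpecialLinearGroup (Fin 2) F) : Matrix (Fin 2) (Fin 2) F) 0 0) * hdet

def wS : Matrix.SpecialLinearGroup (Fin 2) F := ⟨!![0, -1; 1, 0], by simp [Matrix.det_fin_two_of]⟩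

def lS (t : F) : Matrix.SpecialLinearGroup (Fin 2) F := ⟨!![1, 0; t, 1], by simp [Matrix.det_fin_two_of]⟩

def repS : Option F → Matrix.SpecialLinearGroup (Fin 2) F
  | none => wS
  | some t => lS t

theorem wS_coe : ((wS : Matrix.SpecialLinearGroup (Fin 2) F) : Matrix (Fin 2) (Fin 2) F) =
    !![0, -1; 1, 0] := rfl

theorem lS_coe (t : F) : ((lS t : Matrix.SpecialLinearGroup (Fin 2) F) : Matrix (Fin 2) (Fin 2) F) =
    !![1, 0; t, 1] := rfl

theorem wS_inv_coe : (((wS : Matrix.SpecialLinearGroup (Fin 2) F)⁻¹ :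
    Matrix.SpecialLinearGroup (Fin 2) F) : Matrix (Fin 2) (Fin 2) F) = !![0, 1; -1, 0] := by
  rw [Matrix.SpecialLinearGroup.coe_inv, wS_coe, Matrix.adjugate_fin_two_of]
  simp

theorem lS_inv_coe (t : F) : (((lS t : Matrix.SpecialLinearGroup (Fin 2) F)⁻¹ :
    Matrix.SpecialLinearGroup (Fin 2) F) : Matrix (Fin 2) (Fin 2) F) = !![1, 0; -t, 1] := by
  rw [Matrix.SpecialLinearGroup.coe_inv, lS_coe, Matrix.adjugate_fin_two_of]
  simp

theorem wS_inv_mul (x : Matrix.SpecialLinearGroup (Fin 2) F) :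
    (((wS : Matrix.SpecialLinearGroup (Fin 2) F)⁻¹ * x : Matrix.SpecialLinearGroup (Fin 2) F) :
      Matrix (Fin 2) (Fin 2) F) 1 0 = -(x : Matrix (Fin 2) (Fin 2) F) 0 0 := by
  rw [Matrix.SpecialLinearGroup.coe_mul, wS_inv_coe]
  simp [Matrix.mul_apply, Fin.sum_univ_two]

theorem lS_inv_mul (t : F) (x : Matrix.SpecialLinearGroup (Fin 2) F) :
    (((lS t : Matrix.SpecialLinearGroup (Fin 2) F)⁻¹ * x : Matrix.SpecialLinearGroup (Fin 2) F) :
      Matrix (Fin 2) (Fin 2) F) 1 0 =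
      (x : Matrix (Fin 2) (Fin 2) F) 1 0 - t * (x : Matrix (Fin 2) (Fin 2) F) 0 0 := by
  rw [Matrix.SpecialLinearGroup.coe_mul, lS_inv_coe]
  simp [Matrix.mul_apply, Fin.sum_univ_two]
  ring

theorem conj_w (g : Matrix.SpecialLinearGroup (Fin 2) F) :
    (((wS : Matrix.SpecialLinearGroup (Fin 2) F)⁻¹ * g * wS : Matrix.SpecialLinearGroup (Fin 2) F) :
      Matrix (Fin 2) (Fin 2) F) 1 0 = -(g : Matrix (Fin 2) (Fin 2) F) 0 1 ∧
    (((wS : Matrix.SpecialLinearGroup (Fin 2) F)⁻¹ * g * wS : Matrix.SpecialLinearGroup (Fin 2) F) :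
      Matrix (Fin 2) (Fin 2) F) 0 0 = (g : Matrix (Fin 2) (Fin 2) F) 1 1 := by
  rw [Matrix.SpecialLinearGroup.coe_mul, Matrix.SpecialLinearGroup.coe_mul, wS_inv_coe, wS_coe]
  constructor <;> simp [Matrix.mul_apply, Fin.sum_univ_two, Matrix.vecMul, dotProduct]

theorem conj_l (g : Matrix.SpecialLinearGroup (Fin 2) F) (t : F) :
    (((lS t : Matrix.SpecialLinearGroup (Fin 2) F)⁻¹ * g * lS t : Matrix.SpecialLinearGroup (Fin 2) F) :
      Matrix (Fin 2) (Fin 2) F) 1 0 =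
      (g : Matrix (Fin 2) (Fin 2) F) 1 0 + (g : Matrix (Fin 2) (Fin 2) F) 1 1 * t -
        ((g : Matrix (Fin 2) (Fin 2) F) 0 0 + (g : Matrix (Fin 2) (Fin 2) F) 0 1 * t) * t ∧
    (((lS t : Matrix.SpecialLinearGroup (Fin 2) F)⁻¹ * g * lS t : Matrix.SpecialLinearGroup (Fin 2) F) :
      Matrix (Fin 2) (Fin 2) F) 0 0 =
      (g : Matrix (Fin 2) (Fin 2) F) 0 0 + (g : Matrix (Fin 2) (Fin 2) F) 0 1 * t := by
  rw [Matrix.SpecialLinearGroup.coe_mul, Matrix.SpecialLinearGroup.coe_mul, lS_inv_coe, lS_coe]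
  constructor <;> simp [Matrix.mul_apply, Fin.sum_univ_two, Matrix.vecMul, dotProduct] <;> ring

theorem rep_unique (x : Matrix.SpecialLinearGroup (Fin 2) F) :
    ∃! o : Option F, (repS o)⁻¹ * x ∈ (Cfsg.upperTriangularGL 2 F).comap Matrix.SpecialLinearGroup.toGL := by
  have hw : (wS : Matrix.SpecialLinearGroup (Fin 2) F)⁻¹ * x ∈
      (Cfsg.upperTriangularGL 2 F).comap Matrix.SpecialLinearGroup.toGL ↔
      (x : Matrix (Fin 2) (Fin 2) F) 0 0 = 0 := by
    rw [mem_bor_iff, wS_inv_mul, neg_eq_zero]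
  have hl : ∀ t : F, (lS t : Matrix.SpecialLinearGroup (Fin 2) F)⁻¹ * x ∈
      (Cfsg.upperTriangularGL 2 F).comap Matrix.SpecialLinearGroup.toGL ↔
      (x : Matrix (Fin 2) (Fin 2) F) 1 0 = t * (x : Matrix (Fin 2) (Fin 2) F) 0 0 := by
    intro t
    rw [mem_bor_iff, lS_inv_mul, sub_eq_zero]
  have hdet := x.det_coe
  rw [Matrix.det_fin_two] at hdet
  by_cases h0 : (x : Matrix (Fin 2) (Fin 2) F) 0 0 = 0
  · refine ⟨none, hw.mpr h0, ?_⟩
    intro o ho
    cases o with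
    | none => rfl
    | some t =>
      exfalso
      have h1 : (x : Matrix (Fin 2) (Fin 2) F) 1 0 = 0 := by rw [(hl t).mp ho, h0, mul_zero]
      rw [h0, h1] at hdet
      simp at hdet
  · refine ⟨some ((x : Matrix (Fin 2) (Fin 2) F) 1 0 / (x : Matrix (Fin 2) (Fin 2) F) 0 0),
      (hl _).mpr (by field_simp), ?_⟩
    intro o ho
    cases o with
    | none => exact absurd (hw.mp ho) h0
    | some t =>
      have h1 := (hl t).mp ho
      congr 1
      rw [h1]
      field_simp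

theorem ind_apply [Fintype F] [DecidableEq F] (α : MulChar F ℂ)
    (g : Matrix.SpecialLinearGroup (Fin 2) F) :
    Cfsg.indFun ((Cfsg.upperTriangularGL 2 F).comap Matrix.SpecialLinearGroup.toGL)
        (fun b => α (((b : Matrix.SpecialLinearGroup (Fin 2) F) : Matrix (Fin 2) (Fin 2) F) 0 0)) g =
      (if (g : Matrix (Fin 2) (Fin 2) F) 0 1 = 0 then α ((g : Matrix (Fin 2) (Fin 2) F) 1 1) else 0) +
      ∑ t : F, (if (g : Matrix (Fin 2) (Fin 2) F) 1 0 + (g : Matrix (Fin 2) (Fin 2) F) 1 1 * t =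
          ((g : Matrix (Fin 2) (Fin 2) F) 0 0 + (g : Matrix (Fin 2) (Fin 2) F) 0 1 * t) * t then
        α ((g : Matrix (Fin 2) (Fin 2) F) 0 0 + (g : Matrix (Fin 2) (Fin 2) F) 0 1 * t) else 0) := by
  rw [Cfsg.Agent.Lib.Helper13.GL2Ind.ind_transversal _ _ (theta_isClass α) repS rep_unique g,
    Fintype.sum_option]
  congr 1
  · obtain ⟨e1, e2⟩ := conj_w g
    show Cfsg.extendByZero _ _ ((wS : Matrix.SpecialLinearGroup (Fin 2) F)⁻¹ * g * wS) = _
    by_cases h : (g : Matrix (Fin 2) (Fin 2) F) 0 1 = 0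
    · have hmem : (wS : Matrix.SpecialLinearGroup (Fin 2) F)⁻¹ * g * wS ∈
          (Cfsg.upperTriangularGL 2 F).comap Matrix.SpecialLinearGroup.toGL := by
        rw [mem_bor_iff, e1, h, neg_zero]
      rw [extendByZero_of_mem _ _ hmem, if_pos h]
      show α _ = _
      rw [e2]
    · have hmem : (wS : Matrix.SpecialLinearGroup (Fin 2) F)⁻¹ * g * wS ∉
          (Cfsg.upperTriangularGL 2 F).comap Matrix.SpecialLinearGroup.toGL := by
        rw [mem_bor_iff, e1, neg_eq_zero]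
        exact h
      rw [extendByZero_of_not_mem _ _ hmem, if_neg h]
  · apply Finset.sum_congr rfl
    intro t _
    obtain ⟨e1, e2⟩ := conj_l g t
    show Cfsg.extendByZero _ _ ((lS t : Matrix.SpecialLinearGroup (Fin 2) F)⁻¹ * g * lS t) = _
    by_cases h : (g : Matrix (Fin 2) (Fin 2) F) 1 0 + (g : Matrix (Fin 2) (Fin 2) F) 1 1 * t =
          ((g : Matrix (Fin 2) (Fin 2) F) 0 0 + (g : Matrix (Fin 2) (Fin 2) F) 0 1 * t) * t
    · have hmem : (lS t : Matrix.SpecialLinearGroup (Fin 2) F)⁻¹ * g * lS t ∈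
          (Cfsg.upperTriangularGL 2 F).comap Matrix.SpecialLinearGroup.toGL := by
        rw [mem_bor_iff, e1, h, sub_self]
      rw [extendByZero_of_mem _ _ hmem, if_pos h]
      show α _ = _
      rw [e2]
    · have hmem : (lS t : Matrix.SpecialLinearGroup (Fin 2) F)⁻¹ * g * lS t ∉
          (Cfsg.upperTriangularGL 2 F).comap Matrix.SpecialLinearGroup.toGL := by
        rw [mem_bor_iff, e1, sub_eq_zero]
        exact h
      rw [extendByZero_of_not_mem _ _ hmem, if_neg h]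

def bMat (a : Fˣ) (c : F) : Matrix.SpecialLinearGroup (Fin 2) F :=
  ⟨!![(a : F), c; 0, ((a⁻¹ : Fˣ) : F)], by simp [Matrix.det_fin_two_of]⟩

noncomputable def bElt (a : Fˣ) (c : F) :
    ↥((Cfsg.upperTriangularGL 2 F).comap Matrix.SpecialLinearGroup.toGL) :=
  ⟨bMat a c, (mem_bor_iff (bMat a c)).mpr rfl⟩

theorem bElt_00 (a : Fˣ) (c : F) :
    (((bElt a c : ↥((Cfsg.upperTriangularGL 2 F).comap Matrix.SpecialLinearGroup.toGL)) :
      Matrix.SpecialLinearGroup (Fin 2) F) : Matrix (Fin 2) (Fin 2) F) 0 0 = a := rfl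

theorem bElt_01 (a : Fˣ) (c : F) :
    (((bElt a c : ↥((Cfsg.upperTriangularGL 2 F).comap Matrix.SpecialLinearGroup.toGL)) :
      Matrix.SpecialLinearGroup (Fin 2) F) : Matrix (Fin 2) (Fin 2) F) 0 1 = c := rfl

theorem bElt_10 (a : Fˣ) (c : F) :
    (((bElt a c : ↥((Cfsg.upperTriangularGL 2 F).comap Matrix.SpecialLinearGroup.toGL)) :
      Matrix.SpecialLinearGroup (Fin 2) F) : Matrix (Fin 2) (Fin 2) F) 1 0 = 0 := rfl

theorem bElt_11 (a : Fˣ) (c : F) :
    (((bElt a c : ↥((Cfsg.upperTriangularGL 2 F).comap Matrix.SpecialLinearGroup.toGL)) :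
      Matrix.SpecialLinearGroup (Fin 2) F) : Matrix (Fin 2) (Fin 2) F) 1 1 = ((a⁻¹ : Fˣ) : F) := rfl

noncomputable def bEquiv :
    Fˣ × F ≃ ↥((Cfsg.upperTriangularGL 2 F).comap Matrix.SpecialLinearGroup.toGL) where
  toFun p := bElt p.1 p.2
  invFun b := (Units.mk0 (((b : Matrix.SpecialLinearGroup (Fin 2) F) : Matrix (Fin 2) (Fin 2) F) 0 0)
    (left_ne_zero_of_mul_eq_one (bor_diag b)),
    ((b : Matrix.SpecialLinearGroup (Fin 2) F) : Matrix (Fin 2) (Fin 2) F) 0 1)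
  left_inv p := Prod.ext (Units.ext rfl) rfl
  right_inv b := by
    apply Subtype.ext
    apply Subtype.ext
    have h10 := (mem_bor_iff b.1).mp b.2
    have hd := bor_diag b
    ext i j
    fin_cases i <;> fin_cases j
    · rfl
    · rfl
    · exact h10.symm
    · show ((Units.mk0 (((b : Matrix.SpecialLinearGroup (Fin 2) F) : Matrix (Fin 2) (Fin 2) F) 0 0)
        (left_ne_zero_of_mul_eq_one (bor_diag b)))⁻¹ : Fˣ).val = _
      rw [Units.val_inv_eq_inv_val, Units.val_mk0]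
      exact inv_eq_of_mul_eq_one_right hd

theorem sum_bor [Fintype F] [DecidableEq F]
    [Fintype ↥((Cfsg.upperTriangularGL 2 F).comap Matrix.SpecialLinearGroup.toGL)]
    (Φ : ↥((Cfsg.upperTriangularGL 2 F).comap Matrix.SpecialLinearGroup.toGL) → ℂ) :
    ∑ b, Φ b = ∑ a : Fˣ, ∑ c : F, Φ (bElt a c) := by
  rw [← bEquiv.sum_comp, Fintype.sum_prod_type]
  rfl

theorem card_bor [Fintype F] :
    Nat.card ↥((Cfsg.upperTriangularGL 2 F).comap Matrix.SpecialLinearGroup.toGL) =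
      (Fintype.card F - 1) * Fintype.card F := by
  classical
  rw [← Nat.card_congr (bEquiv (F := F)), Nat.card_prod, Nat.card_eq_fintype_card,
    Nat.card_eq_fintype_card, Fintype.card_units]

theorem card_bor_cast [Fintype F] :
    (Nat.card ↥((Cfsg.upperTriangularGL 2 F).comap Matrix.SpecialLinearGroup.toGL) : ℂ) =
      ((Fintype.card F : ℂ) - 1) * Fintype.card F := by
  have h1 : 1 ≤ Fintype.card F := Fintype.card_pos
  rw [card_bor]
  push_cast [Nat.cast_sub h1]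
  ring

theorem sum_ind_bElt [Fintype F] [DecidableEq F] (β : MulChar F ℂ) (a : Fˣ) :
    ∑ c : F, Cfsg.indFun ((Cfsg.upperTriangularGL 2 F).comap Matrix.SpecialLinearGroup.toGL)
        (fun b => β (((b : Matrix.SpecialLinearGroup (Fin 2) F) : Matrix (Fin 2) (Fin 2) F) 0 0))
        (bElt a c) =
      (Fintype.card F : ℂ) * (β a + β ((a⁻¹ : Fˣ) : F)) := by
  have hval : ∀ c : F, Cfsg.indFun ((Cfsg.upperTriangularGL 2 F).comap Matrix.SpecialLinearGroup.toGL)
        (fun b => β (((b : Matrix.SpecialLinearGroup (Fin 2) F) : Matrix (Fin 2) (Fin 2) F) 0 0))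
        (bElt a c) =
      (if c = 0 then β ((a⁻¹ : Fˣ) : F) else 0) +
        ∑ t : F, (if ((a⁻¹ : Fˣ) : F) * t = ((a : F) + c * t) * t then β ((a : F) + c * t) else 0) := by
    intro c
    rw [ind_apply, bElt_00, bElt_01, bElt_10, bElt_11]
    simp only [zero_add]
  rw [Finset.sum_congr rfl (fun c _ => hval c), Finset.sum_add_distrib, Finset.sum_ite_eq',
    if_pos (Finset.mem_univ _), Finset.sum_comm]
  have hinner : ∀ t : F, ∑ c : F, (if ((a⁻¹ : Fˣ) : F) * t = ((a : F) + c * t) * t then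
        β ((a : F) + c * t) else 0) =
      β ((a⁻¹ : Fˣ) : F) +
        (if t = 0 then (Fintype.card F : ℂ) * β a - β ((a⁻¹ : Fˣ) : F) else 0) := by
    intro t
    by_cases ht : t = 0
    · subst ht
      simp
    · rw [if_neg ht, add_zero]
      have h1 : ∀ c : F, (if ((a⁻¹ : Fˣ) : F) * t = ((a : F) + c * t) * t then
          β ((a : F) + c * t) else 0) =
          (if c = (((a⁻¹ : Fˣ) : F) - a) / t then β ((a⁻¹ : Fˣ) : F) else 0) := by
        intro c
        by_cases hc : c = (((a⁻¹ : Fˣ) : F) - a) / t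
        · have e1 : (a : F) + c * t = ((a⁻¹ : Fˣ) : F) := by rw [hc]; field_simp; ring
          rw [if_pos hc, if_pos (by rw [e1]), e1]
        · rw [if_neg hc, if_neg]
          intro h
          apply hc
          have h2 : ((a⁻¹ : Fˣ) : F) = (a : F) + c * t := mul_right_cancel₀ ht h
          rw [h2]; field_simp; ring
      rw [Finset.sum_congr rfl (fun c _ => h1 c), Finset.sum_ite_eq', if_pos (Finset.mem_univ _)]
  rw [Finset.sum_congr rfl (fun t _ => hinner t), Finset.sum_add_distrib, Finset.sum_ite_eq',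
    if_pos (Finset.mem_univ _), Finset.sum_const, Finset.card_univ, nsmul_eq_mul]
  ring

theorem ite_aux (P Q : Prop) (d1 : Decidable P) (d2 : Decidable Q) (d3 : Decidable P) (d4 : Decidable Q)
    (q : ℂ) (h0 : q ≠ 0) (h1 : q - 1 ≠ 0) :
    ((q - 1) * q)⁻¹ * (q * ((@ite _ P d1 (q - 1) 0) + (@ite _ Q d2 (q - 1) 0))) =
      (@ite _ P d3 1 0) + (@ite _ Q d4 1 0) := by
  by_cases hP : P <;> by_cases hQ : Q <;> simp [hP, hQ] <;> field_simp

theorem classInner_ind [Fintype F] [DecidableEq F] (α β : MulChar F ℂ)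
    [Decidable (α = β)] [Decidable (α = β⁻¹)] :
    Cfsg.classInner
      (Cfsg.indFun ((Cfsg.upperTriangularGL 2 F).comap Matrix.SpecialLinearGroup.toGL)
        (fun b => α (((b : Matrix.SpecialLinearGroup (Fin 2) F) : Matrix (Fin 2) (Fin 2) F) 0 0)))
      (Cfsg.indFun ((Cfsg.upperTriangularGL 2 F).comap Matrix.SpecialLinearGroup.toGL)
        (fun b => β (((b : Matrix.SpecialLinearGroup (Fin 2) F) : Matrix (Fin 2) (Fin 2) F) 0 0))) =
      (if α = β then 1 else 0) + (if α = β⁻¹ then 1 else 0) := by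
  have : Fintype ↥((Cfsg.upperTriangularGL 2 F).comap Matrix.SpecialLinearGroup.toGL) :=
    Fintype.ofFinite _
  rw [frobenius_reciprocity _ _ (indFun_isClassFunction _ _), Cfsg.classInner, sum_bor]
  have h1 : ∀ a : Fˣ, ∑ c : F,
      α ((((bElt a c : ↥((Cfsg.upperTriangularGL 2 F).comap Matrix.SpecialLinearGroup.toGL)) :
        Matrix.SpecialLinearGroup (Fin 2) F) : Matrix (Fin 2) (Fin 2) F) 0 0) *
      conj (Cfsg.indFun ((Cfsg.upperTriangularGL 2 F).comap Matrix.SpecialLinearGroup.toGL)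
        (fun b => β (((b : Matrix.SpecialLinearGroup (Fin 2) F) : Matrix (Fin 2) (Fin 2) F) 0 0))
        (bElt a c)) =
      α a * conj ((Fintype.card F : ℂ) * (β a + β ((a⁻¹ : Fˣ) : F))) := by
    intro a
    rw [← sum_ind_bElt, map_sum, Finset.mul_sum]
    apply Finset.sum_congr rfl
    intro c _
    rw [bElt_00]
  have h2 : ∑ a : Fˣ, α a * conj ((Fintype.card F : ℂ) * (β a + β ((a⁻¹ : Fˣ) : F))) =
      (Fintype.card F : ℂ) * ((∑ a : Fˣ, α a * conj (β a)) + (∑ a : Fˣ, α a * conj (β⁻¹ a))) := by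
    rw [← Finset.sum_add_distrib, Finset.mul_sum]
    apply Finset.sum_congr rfl
    intro a _
    have e : β⁻¹ (a : F) = β ((a⁻¹ : Fˣ) : F) := by
      rw [MulChar.inv_apply', Units.val_inv_eq_inv_val]
    rw [e]
    simp only [map_mul, map_add, Complex.conj_natCast]
    ring
  rw [Finset.sum_congr rfl (fun a _ => h1 a), h2, Cfsg.Agent.Lib.Helper13.GL2Ind.mulChar_orth,
    Cfsg.Agent.Lib.Helper13.GL2Ind.mulChar_orth, card_bor_cast]
  obtain ⟨hq0, hq1⟩ := Cfsg.Agent.Lib.Helper13.GL2Ind.card_F_cast_ne (F := F)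
  exact ite_aux _ _ _ _ _ _ _ hq0 hq1

end Cfsg.Agent.Lib.Helper14.SL2Ind
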