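import Mathlib

namespace Cfsg.Agent.Lib.Helper14.SylowTorus

/-- A finite group `T` of the right order injecting into `G` is isomorphic to every Sylow. -/
theorem sylow_equiv_of_hom {G : Type*} [Group G] [Finite G] {p : ℕ} [Fact p.Prime]
    (P : Sylow p G) {T : Type*} [Group T] (f : T →* G) (hf : Function.Injective f)
    (hcard : Nat.card T = p ^ (Nat.card G).factorization p) :
    Nonempty (↥(P : Subgroup G) ≃* T) := by
  have e1 : T ≃* f.range := MonoidHom.ofInjective hf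
  have hc : Nat.card f.range = p ^ (Nat.card G).factorization p := by
    rw [← hcard]; exact Nat.card_congr e1.symm.toEquiv
  have hp : IsPGroup p f.range := IsPGroup.of_card hc
  obtain ⟨Q, hQ⟩ := hp.exists_le_sylow
  have hQc : Nat.card (Q : Subgroup G) = p ^ (Nat.card G).factorization p :=
    Sylow.card_eq_multiplicity Q
  have hQe : f.range = (Q : Subgroup G) :=
    Subgroup.eq_of_le_of_card_ge hQ (by rw [hc, hQc])
  obtain ⟨g, hg⟩ := MulAction.exists_smul_eq G Q P
  have e2 : ↥(Q : Subgroup G) ≃* ↥((g • Q : Sylow p G) : Subgroup G) := Sylow.equivSMul Q g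
  rw [hg] at e2
  have e3 : ↥(Q : Subgroup G) ≃* f.range := MulEquiv.subgroupCongr hQe.symm
  exact ⟨e2.symm.trans (e3.trans e1.symm)⟩

section nt

variable (r : ℕ) [Fact r.Prime] (q : ℕ)

theorem int_dvd_iff (c : ℕ) : (r : ℤ) ∣ (q : ℤ) ^ c - 1 ↔ orderOf (q : ZMod r) ∣ c := by
  rw [← ZMod.intCast_zmod_eq_zero_iff_dvd, orderOf_dvd_iff_pow_eq_one]
  push_cast
  rw [sub_eq_zero]

theorem nat_dvd_iff (hq : 1 ≤ q) (c : ℕ) : r ∣ q ^ c - 1 ↔ orderOf (q : ZMod r) ∣ c := by
  rw [← int_dvd_iff, ← Int.natCast_dvd_natCast, Nat.cast_pred (Nat.pow_pos hq)]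
  push_cast; rfl

theorem order_pos (hrq : ¬ r ∣ q) : 0 < orderOf (q : ZMod r) := by
  have h0 : (q : ZMod r) ≠ 0 := by
    rwa [Ne, ZMod.natCast_eq_zero_iff]
  have h1 := ZMod.orderOf_dvd_card_sub_one h0
  have h2 : 0 < r - 1 := by have := (Fact.out : r.Prime).two_le; omega
  exact Nat.pos_of_dvd_of_pos h1 h2

theorem val_mul (hq : 2 ≤ q) (hrq : ¬ r ∣ q) (k : ℕ) (hk : 0 < k) (hkr : k < r) :
    padicValNat r (q ^ (orderOf (q : ZMod r) * k) - 1) =
      padicValNat r (q ^ orderOf (q : ZMod r) - 1) := by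
  set d := orderOf (q : ZMod r) with hd
  have hd0 : 0 < d := order_pos r q hrq
  have hrp : Prime (r : ℤ) := Nat.prime_iff_prime_int.mp Fact.out
  have h1 : (r : ℤ) ∣ (q : ℤ) ^ d - 1 := (int_dvd_iff r q d).mpr dvd_rfl
  have h2 : ¬ (r : ℤ) ∣ (q : ℤ) ^ d := by
    intro h
    have := hrp.dvd_of_dvd_pow h
    exact hrq (Int.natCast_dvd_natCast.mp this)
  have h3 : ¬ (r : ℤ) ∣ ((k : ℕ) : ℤ) := by
    intro h
    have := Nat.le_of_dvd hk (Int.natCast_dvd_natCast.mp h)
    omega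
  have key := emultiplicity_pow_sub_pow_of_prime hrp (x := (q : ℤ) ^ d) (y := 1) h1 h2 h3
  rw [one_pow, ← pow_mul] at key
  have hA : q ^ (d * k) - 1 ≠ 0 := by
    have : 2 ^ 1 ≤ q ^ (d * k) :=
      (Nat.pow_le_pow_left hq 1).trans (Nat.pow_le_pow_right (by omega) (Nat.mul_pos hd0 hk))
    omega
  have hB : q ^ d - 1 ≠ 0 := by
    have : 2 ^ 1 ≤ q ^ d :=
      (Nat.pow_le_pow_left hq 1).trans (Nat.pow_le_pow_right (by omega) hd0)
    omega
  have e1 : ((q ^ (d * k) - 1 : ℕ) : ℤ) = (q : ℤ) ^ (d * k) - 1 := by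
    rw [Nat.cast_pred (Nat.pow_pos (by omega))]; push_cast; rfl
  have e2 : ((q ^ d - 1 : ℕ) : ℤ) = (q : ℤ) ^ d - 1 := by
    rw [Nat.cast_pred (Nat.pow_pos (by omega))]; push_cast; rfl
  rw [← e1, ← e2, Int.natCast_emultiplicity, Int.natCast_emultiplicity,
    ← padicValNat_eq_emultiplicity hA, ← padicValNat_eq_emultiplicity hB] at key
  exact_mod_cast key

theorem val_cyclotomic (hq : 2 ≤ q) (hrq : ¬ r ∣ q) :
    padicValNat r ((Polynomial.cyclotomic (orderOf (q : ZMod r)) ℤ).eval (q : ℤ)).natAbs =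
      padicValNat r (q ^ orderOf (q : ZMod r) - 1) := by
  set d := orderOf (q : ZMod r) with hd
  have hd0 : 0 < d := order_pos r q hrq
  have hrp : Prime (r : ℤ) := Nat.prime_iff_prime_int.mp Fact.out
  have hB : q ^ d - 1 ≠ 0 := by
    have : 2 ^ 1 ≤ q ^ d :=
      (Nat.pow_le_pow_left hq 1).trans (Nat.pow_le_pow_right (by omega) hd0)
    omega
  have e2 : ((q ^ d - 1 : ℕ) : ℤ) = (q : ℤ) ^ d - 1 := by
    rw [Nat.cast_pred (Nat.pow_pos (by omega))]; push_cast; rfl
  have hprod := congrArg (Polynomial.eval (q : ℤ))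
    (Polynomial.prod_cyclotomic_eq_X_pow_sub_one hd0 ℤ)
  rw [Polynomial.eval_prod, ← Nat.cons_self_properDivisors hd0.ne', Finset.prod_cons] at hprod
  simp only [Polynomial.eval_sub, Polynomial.eval_pow, Polynomial.eval_X,
    Polynomial.eval_one] at hprod
  set A := (Polynomial.cyclotomic d ℤ).eval (q : ℤ) with hA
  set B := ∏ c ∈ d.properDivisors, (Polynomial.cyclotomic c ℤ).eval (q : ℤ) with hBdef
  have hnat : q ^ d - 1 = A.natAbs * B.natAbs := by
    rw [← Int.natAbs_mul, hprod, ← e2, Int.natAbs_natCast]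
  have hA0 : A.natAbs ≠ 0 := by
    intro h; rw [h, zero_mul] at hnat; exact hB hnat
  have hB0 : B.natAbs ≠ 0 := by
    intro h; rw [h, mul_zero] at hnat; exact hB hnat
  have hBr : ¬ r ∣ B.natAbs := by
    rw [← Int.natCast_dvd]
    intro h
    rw [hBdef, hrp.dvd_finsetProd_iff] at h
    obtain ⟨c, hc, hcd⟩ := h
    rw [Nat.mem_properDivisors] at hc
    have h1 : (r : ℤ) ∣ (q : ℤ) ^ c - 1 := by
      refine hcd.trans ?_
      have := Polynomial.eval_dvd (x := (q : ℤ)) (Polynomial.cyclotomic.dvd_X_pow_sub_one c ℤ)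
      simpa using this
    have h2 := (int_dvd_iff r q c).mp h1
    have hc0 : 0 < c := Nat.pos_of_dvd_of_pos hc.1 hd0
    have := Nat.le_of_dvd hc0 h2
    omega
  rw [hnat, padicValNat.mul hA0 hB0, padicValNat.eq_zero_of_not_dvd hBr, add_zero]

/-- The `r`-adic valuation of `∏_{j=1}^n (q^j - 1)`, for `n < r`. -/
theorem val_sum (hq : 2 ≤ q) (hrq : ¬ r ∣ q) (n : ℕ) (hn : n < r) :
    ∑ j ∈ Finset.range n, padicValNat r (q ^ (j + 1) - 1) =
      (n / orderOf (q : ZMod r)) *
        padicValNat r ((Polynomial.cyclotomic (orderOf (q : ZMod r)) ℤ).eval (q : ℤ)).natAbs := by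
  rw [val_cyclotomic r q hq hrq]
  set d := orderOf (q : ZMod r) with hd
  have hd0 : 0 < d := order_pos r q hrq
  induction n with
  | zero => simp
  | succ n ih =>
    rw [Finset.sum_range_succ, ih (by omega), Nat.succ_div]
    by_cases hdv : d ∣ n + 1
    · obtain ⟨k, hk⟩ := hdv
      have hk0 : 0 < k := by
        rcases Nat.eq_zero_or_pos k with h | h
        · subst h; omega
        · exact h
      have hkr : k < r := by
        have : k ≤ d * k := Nat.le_mul_of_pos_left k hd0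
        omega
      rw [if_pos ⟨k, hk⟩, hk, val_mul r q hq hrq k hk0 hkr]
      ring
    · have hz : padicValNat r (q ^ (n + 1) - 1) = 0 :=
        padicValNat.eq_zero_of_not_dvd (by rw [nat_dvd_iff r q (by omega)]; exact hdv)
      rw [if_neg hdv, hz, add_zero, add_zero]

end nt

section nt2
variable (r : ℕ) [Fact r.Prime] (q : ℕ)

theorem val_prod (hq : 2 ≤ q) (hrq : ¬ r ∣ q) (n : ℕ) (hn : n < r) :
    padicValNat r (∏ i : Fin n, (q ^ n - q ^ (i : ℕ))) =
      (n / orderOf (q : ZMod r)) *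
        padicValNat r ((Polynomial.cyclotomic (orderOf (q : ZMod r)) ℤ).eval (q : ℤ)).natAbs := by
  have hr : r.Prime := Fact.out
  rw [← val_sum r q hq hrq n hn, Fin.prod_univ_eq_prod_range (fun i => q ^ n - q ^ i) n,
    ← Nat.factorization_def _ hr]
  have hne : ∀ i ∈ Finset.range n, q ^ n - q ^ i ≠ 0 := by
    intro i hi
    rw [Finset.mem_range] at hi
    have : q ^ i < q ^ n := Nat.pow_lt_pow_right (by omega) hi
    omega
  rw [Nat.factorization_prod hne, Finsupp.finsetSum_apply,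
    ← Finset.sum_range_reflect (fun j => padicValNat r (q ^ (j + 1) - 1)) n]
  refine Finset.sum_congr rfl fun i hi => ?_
  rw [Finset.mem_range] at hi
  have h1 : q ^ n - q ^ i = q ^ i * (q ^ (n - i) - 1) := by
    rw [Nat.mul_sub, ← pow_add, mul_one]
    congr 2; omega
  have h2 : q ^ i ≠ 0 := (Nat.pow_pos (by omega)).ne'
  have h3 : q ^ (n - i) - 1 ≠ 0 := by
    have : 2 ^ 1 ≤ q ^ (n - i) :=
      (Nat.pow_le_pow_left hq 1).trans (Nat.pow_le_pow_right (by omega) (by omega))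
    omega
  rw [Nat.factorization_def _ hr, h1, padicValNat.mul h2 h3,
    padicValNat.eq_zero_of_not_dvd (fun h => hrq (hr.dvd_of_dvd_pow h)), zero_add]
  congr 3; omega

theorem val_GL {F : Type*} [Field F] [Fintype F] (hrq : ¬ r ∣ Fintype.card F) (n : ℕ)
    (hn : n < r) :
    (Nat.card (GL (Fin n) F)).factorization r =
      (n / orderOf ((Fintype.card F : ℕ) : ZMod r)) *
        padicValNat r ((Polynomial.cyclotomic (orderOf ((Fintype.card F : ℕ) : ZMod r)) ℤ).eval
          ((Fintype.card F : ℕ) : ℤ)).natAbs := by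
  rw [Matrix.card_GL_field, Nat.factorization_def _ Fact.out]
  exact val_prod r _ Fintype.one_lt_card hrq n hn

end nt2

end Cfsg.Agent.Lib.Helper14.SylowTorus
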