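import Mathlib
import Cfsg.Agent.Lib.Helper14.SylowTorus

namespace Cfsg.Agent.Lib.Helper14.SylowTorus

section torus

/-- The torus `(Kˣ)^a` acting `F`-linearly on `K^a × F^b`. -/
noncomputable def torusEnd (F K : Type*) [Field F] [CommRing K] [Algebra F K] (a b : ℕ) :
    (Fin a → Kˣ) →* Module.End F ((Fin a → K) × (Fin b → F)) where
  toFun u :=
    { toFun := fun x => (fun i => (u i : K) * x.1 i, x.2)
      map_add' := by
        intro x y
        ext i
        · simp [mul_add]
        · simp
      map_smul' := by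
        intro c x
        ext i
        · simp [Algebra.smul_def, mul_left_comm]
        · simp }
  map_one' := by
    ext x i <;> simp
  map_mul' := by
    intro u v
    ext x i <;> simp [mul_assoc]

theorem torusEnd_injective (F K : Type*) [Field F] [CommRing K] [Algebra F K] (a b : ℕ) :
    Function.Injective (torusEnd F K a b) := by
  intro u v h
  funext i
  have h1 := congrArg (fun L : Module.End F ((Fin a → K) × (Fin b → F)) =>
    (L (Pi.single i 1, 0)).1 i) h
  simp only [torusEnd, MonoidHom.coe_mk, OneHom.coe_mk, LinearMap.coe_mk, AddHom.coe_mk,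
    Pi.single_eq_same, mul_one] at h1
  exact Units.ext h1

theorem exists_torus {F : Type*} [Field F] [Fintype F] (n d m : ℕ) (hd : 0 < d)
    (hm : m ∣ Fintype.card F ^ d - 1) :
    ∃ f : (Fin (n / d) → Multiplicative (ZMod m)) →* GL (Fin n) F, Function.Injective f := by
  obtain ⟨p, hp⟩ := CharP.exists F
  have := hp
  have : Fact p.Prime := ⟨CharP.char_is_prime F p⟩
  have : NeZero d := ⟨hd.ne'⟩
  let K := FiniteField.Extension F p d
  have hKc : Nat.card K = Fintype.card F ^ d := by
    rw [FiniteField.natCard_extension F p d, Nat.card_eq_fintype_card]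
  have hKr : Module.finrank F K = d := FiniteField.finrank_extension F p d
  -- the cyclic subgroup of order m
  have hKu : Nat.card Kˣ = Fintype.card F ^ d - 1 := by
    rw [Nat.card_units, hKc]
  obtain ⟨g, hg⟩ := IsCyclic.exists_ofOrder_eq_natCard (α := Kˣ)
  have hm0 : 0 < m := by
    apply Nat.pos_of_dvd_of_pos hm
    have : 2 ^ 1 ≤ Fintype.card F ^ d :=
      (Nat.pow_le_pow_left Fintype.one_lt_card 1).trans (Nat.pow_le_pow_right Fintype.card_pos hd)
    omega
  obtain ⟨c, hc⟩ := hm
  have hc0 : c ≠ 0 := by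
    rintro rfl
    have : 2 ^ 1 ≤ Fintype.card F ^ d :=
      (Nat.pow_le_pow_left Fintype.one_lt_card 1).trans (Nat.pow_le_pow_right Fintype.card_pos hd)
    omega
  have hz : orderOf (g ^ c) = m := by
    rw [orderOf_pow_of_dvd hc0 (by rw [hg, hKu, hc]; exact dvd_mul_left c m), hg, hKu, hc]
    exact Nat.mul_div_cancel _ (Nat.pos_of_ne_zero hc0)
  have hcard : Nat.card (Subgroup.zpowers (g ^ c)) = m := by rw [Nat.card_zpowers, hz]
  have e := zmodCyclicMulEquiv (G := Subgroup.zpowers (g ^ c)) inferInstance
  rw [hcard] at e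
  let ψ : Multiplicative (ZMod m) →* Kˣ := (Subgroup.subtype _).comp e.toMonoidHom
  have hψ : Function.Injective ψ := (Subgroup.subtype_injective _).comp e.injective
  -- the module
  have hfin : Module.finrank F ((Fin (n / d) → K) × (Fin (n % d) → F)) = n := by
    rw [Module.finrank_prod, Module.finrank_pi_fintype, Module.finrank_fintype_fun_eq_card]
    simp only [hKr, Finset.sum_const, Finset.card_univ, Fintype.card_fin, smul_eq_mul]
    exact Nat.div_add_mod' n d
  let bas := Module.finBasisOfFinrankEq F ((Fin (n / d) → K) × (Fin (n % d) → F)) hfin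
  let E : (Module.End F ((Fin (n / d) → K) × (Fin (n % d) → F)))ˣ ≃* GL (Fin n) F :=
    Units.mapEquiv (LinearMap.toMatrixAlgEquiv bas).toMulEquiv
  refine ⟨E.toMonoidHom.comp ((torusEnd F K (n / d) (n % d)).toHomUnits.comp
    (ψ.compLeft (Fin (n / d)))), ?_⟩
  intro u v h
  have h1 : (torusEnd F K (n / d) (n % d)).toHomUnits (ψ.compLeft (Fin (n / d)) u) =
      (torusEnd F K (n / d) (n % d)).toHomUnits (ψ.compLeft (Fin (n / d)) v) := E.injective h
  have h2 : torusEnd F K (n / d) (n % d) (ψ.compLeft (Fin (n / d)) u) =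
      torusEnd F K (n / d) (n % d) (ψ.compLeft (Fin (n / d)) v) := congrArg Units.val h1
  have h3 := torusEnd_injective F K _ _ h2
  funext i
  exact hψ (congrFun h3 i)

end torus

end Cfsg.Agent.Lib.Helper14.SylowTorus
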