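import Mathlib
import Cfsg.Agent.Lib.Helper14.SylowTorus2
import Cfsg.Agent.S0242

namespace Cfsg.Agent.Lib.Helper14.SylowTorus

section sl

theorem exists_cyclic_hom (K : Type*) [Field K] [Fintype K] (m : ℕ)
    (hm : m ∣ Fintype.card K - 1) :
    ∃ ψ : Multiplicative (ZMod m) →* Kˣ, Function.Injective ψ := by
  have hKu : Nat.card Kˣ = Fintype.card K - 1 := by
    rw [Nat.card_units, Nat.card_eq_fintype_card]
  obtain ⟨g, hg⟩ := IsCyclic.exists_ofOrder_eq_natCard (α := Kˣ)
  have h2 : 2 ≤ Fintype.card K := Fintype.one_lt_card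
  obtain ⟨c, hc⟩ := hm
  have hc0 : c ≠ 0 := by
    rintro rfl
    omega
  have hz : orderOf (g ^ c) = m := by
    rw [orderOf_pow_of_dvd hc0 (by rw [hg, hKu, hc]; exact dvd_mul_left c m), hg, hKu, hc]
    exact Nat.mul_div_cancel _ (Nat.pos_of_ne_zero hc0)
  have hcard : Nat.card (Subgroup.zpowers (g ^ c)) = m := by rw [Nat.card_zpowers, hz]
  have e := zmodCyclicMulEquiv (G := Subgroup.zpowers (g ^ c)) inferInstance
  rw [hcard] at e
  exact ⟨(Subgroup.subtype _).comp e.toMonoidHom, (Subgroup.subtype_injective _).comp e.injective⟩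

/-- The diagonal torus of `SL_{k+1}`. -/
noncomputable def diagSL (F : Type*) [Field F] (k : ℕ) :
    (Fin k → Fˣ) →* Matrix.SpecialLinearGroup (Fin (k + 1)) F where
  toFun u := ⟨Matrix.diagonal (Fin.snoc (α := fun _ => F) (fun i => (u i : F))
      ((∏ i, (u i : F))⁻¹)), by
    rw [Matrix.det_diagonal, Fin.prod_univ_castSucc]
    simp only [Fin.snoc_castSucc, Fin.snoc_last]
    apply mul_inv_cancel₀
    rw [Finset.prod_ne_zero_iff]
    intro i _
    exact (u i).ne_zero⟩
  map_one' := by
    apply Subtype.ext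
    show Matrix.diagonal _ = (1 : Matrix (Fin (k + 1)) (Fin (k + 1)) F)
    rw [← Matrix.diagonal_one]
    congr 1
    funext i
    refine Fin.lastCases ?_ (fun j => ?_) i
    · simp
    · simp
  map_mul' := by
    intro u v
    apply Subtype.ext
    show Matrix.diagonal _ = Matrix.diagonal _ * Matrix.diagonal _
    rw [Matrix.diagonal_mul_diagonal]
    congr 1
    funext i
    refine Fin.lastCases ?_ (fun j => ?_) i
    · simp [Finset.prod_mul_distrib, mul_comm]
    · simp

theorem diagSL_injective (F : Type*) [Field F] (k : ℕ) : Function.Injective (diagSL F k) := by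
  intro u v h
  funext i
  have h1 : (↑(diagSL F k u) : Matrix (Fin (k + 1)) (Fin (k + 1)) F) i.castSucc i.castSucc =
      (↑(diagSL F k v) : Matrix (Fin (k + 1)) (Fin (k + 1)) F) i.castSucc i.castSucc := by rw [h]
  change Matrix.diagonal _ _ _ = Matrix.diagonal _ _ _ at h1
  rw [Matrix.diagonal_apply_eq, Matrix.diagonal_apply_eq, Fin.snoc_castSucc,
    Fin.snoc_castSucc] at h1
  exact Units.ext h1

variable (r : ℕ) [Fact r.Prime]

theorem val_SL {F : Type*} [Field F] [Fintype F] (hrq : ¬ r ∣ Fintype.card F) (n : ℕ)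
    (hn : n < r) (hn1 : 1 ≤ n) :
    padicValNat r (Fintype.card F - 1) +
        (Nat.card (Matrix.SpecialLinearGroup (Fin n) F)).factorization r =
      (n / orderOf ((Fintype.card F : ℕ) : ZMod r)) *
        padicValNat r ((Polynomial.cyclotomic (orderOf ((Fintype.card F : ℕ) : ZMod r)) ℤ).eval
          ((Fintype.card F : ℕ) : ℤ)).natAbs := by
  have h1 := Cfsg.Agent.S0242.card_SL_mul (F := F) n hn1
  have hA : Fintype.card F - 1 ≠ 0 := by
    have : 2 ≤ Fintype.card F := Fintype.one_lt_card
    omega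
  have hB : Nat.card (Matrix.SpecialLinearGroup (Fin n) F) ≠ 0 := Nat.card_pos.ne'
  have h2 : (Nat.card (GL (Fin n) F)).factorization r =
      (Fintype.card F - 1).factorization r +
        (Nat.card (Matrix.SpecialLinearGroup (Fin n) F)).factorization r := by
    rw [← h1, Nat.factorization_mul hA hB]; rfl
  rw [← val_GL r hrq n hn, h2, Nat.factorization_def (Fintype.card F - 1) Fact.out]

theorem exists_torus_SL {F : Type*} [Field F] [Fintype F] (hrq : ¬ r ∣ Fintype.card F) (n : ℕ)
    (k : ℕ) (hk : r ^ k ∣ Fintype.card F ^ orderOf ((Fintype.card F : ℕ) : ZMod r) - 1)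
    (hd : orderOf ((Fintype.card F : ℕ) : ZMod r) ≠ 1) :
    ∃ f : (Fin (n / orderOf ((Fintype.card F : ℕ) : ZMod r)) →
        Multiplicative (ZMod (r ^ k))) →* Matrix.SpecialLinearGroup (Fin n) F,
      Function.Injective f := by
  obtain ⟨f, hf⟩ := exists_torus (F := F) n _ _ (order_pos r _ hrq) hk
  have hr : r.Prime := Fact.out
  have hrq1 : ¬ r ∣ Fintype.card F - 1 := by
    intro h
    have := (nat_dvd_iff r (Fintype.card F) Fintype.card_pos 1).mp (by simpa using h)
    exact hd (Nat.dvd_one.mp this)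
  have hdet : ∀ t, (f t : Matrix (Fin n) (Fin n) F).det = 1 := by
    intro t
    have h1 : (Matrix.GeneralLinearGroup.det (f t)) ^ (Fintype.card F - 1) = 1 := by
      have := pow_card_eq_one' (G := Fˣ) (x := Matrix.GeneralLinearGroup.det (f t))
      rwa [Nat.card_units, Nat.card_eq_fintype_card] at this
    have h2 : (Matrix.GeneralLinearGroup.det (f t)) ^
        (Nat.card (Fin (n / orderOf ((Fintype.card F : ℕ) : ZMod r)) →
          Multiplicative (ZMod (r ^ k)))) = 1 := by
      rw [← map_pow, ← map_pow, pow_card_eq_one', map_one, map_one]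
    have h3 : (Nat.card (Fin (n / orderOf ((Fintype.card F : ℕ) : ZMod r)) →
          Multiplicative (ZMod (r ^ k)))).Coprime (Fintype.card F - 1) := by
      rw [Nat.card_fun, (Nat.card_congr Multiplicative.toAdd).trans (Nat.card_zmod _), ← pow_mul]
      exact Nat.Coprime.pow_left _ ((Nat.Prime.coprime_iff_not_dvd hr).mpr hrq1)
    have h4 := pow_gcd_eq_one.mpr ⟨h2, h1⟩
    rw [h3, pow_one] at h4
    have := congrArg Units.val h4
    simpa using this
  refine ⟨{ toFun := fun t => ⟨(f t : Matrix (Fin n) (Fin n) F), hdet t⟩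
            map_one' := ?_
            map_mul' := ?_ }, ?_⟩
  · apply Subtype.ext
    show ((f 1 : GL (Fin n) F) : Matrix (Fin n) (Fin n) F) = 1
    rw [map_one]; rfl
  · intro s t
    apply Subtype.ext
    show ((f (s * t) : GL (Fin n) F) : Matrix (Fin n) (Fin n) F) =
      (f s : Matrix (Fin n) (Fin n) F) * (f t : Matrix (Fin n) (Fin n) F)
    rw [map_mul]; rfl
  · intro s t h
    apply hf
    apply Units.ext
    exact congrArg Subtype.val h

end sl

end Cfsg.Agent.Lib.Helper14.SylowTorus
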