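import Mathlib
import Cfsg.Agent.Lib.Helper14.SylowTorus3
import Cfsg.Agent.Lib.Helper15.Embed
import Cfsg.Agent.S0245

namespace Cfsg.Agent.Lib.Helper14.SylowTorus

section nt3

variable (r : ℕ) [Fact r.Prime] (q : ℕ)

theorem val_mul' (hq : 2 ≤ q) (hrq : ¬ r ∣ q) (k : ℕ) (hk : 0 < k) (hkr : ¬ r ∣ k) :
    padicValNat r (q ^ (orderOf (q : ZMod r) * k) - 1) =
      padicValNat r (q ^ orderOf (q : ZMod r) - 1) := by
  set d := orderOf (q : ZMod r) with hd
  have hd0 : 0 < d := order_pos r q hrq
  have hrp : Prime (r : ℤ) := Nat.prime_iff_prime_int.mp Fact.out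
  have h1 : (r : ℤ) ∣ (q : ℤ) ^ d - 1 := (int_dvd_iff r q d).mpr dvd_rfl
  have h2 : ¬ (r : ℤ) ∣ (q : ℤ) ^ d := by
    intro h
    have := hrp.dvd_of_dvd_pow h
    exact hrq (Int.natCast_dvd_natCast.mp this)
  have h3 : ¬ (r : ℤ) ∣ ((k : ℕ) : ℤ) := by
    intro h
    exact hkr (Int.natCast_dvd_natCast.mp h)
  have key := emultiplicity_pow_sub_pow_of_prime hrp (x := (q : ℤ) ^ d) (y := 1) h1 h2 h3
  rw [one_pow, ← pow_mul] at key
  have hA : q ^ (d * k) - 1 ≠ 0 := by
    have : 2 ^ 1 ≤ q ^ (d * k) :=
      (Nat.pow_le_pow_left hq 1).trans (Nat.pow_le_pow_right (by omega) (Nat.mul_pos hd0 hk))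
    omega
  have hB : q ^ d - 1 ≠ 0 := by
    have : 2 ^ 1 ≤ q ^ d :=
      (Nat.pow_le_pow_left hq 1).trans (Nat.pow_le_pow_right (by omega) hd0)
    omega
  have e1 : ((q ^ (d * k) - 1 : ℕ) : ℤ) = (q : ℤ) ^ (d * k) - 1 := by
    rw [Nat.cast_pred (Nat.pow_pos (by omega))]; push_cast; rfl
  have e2 : ((q ^ d - 1 : ℕ) : ℤ) = (q : ℤ) ^ d - 1 := by
    rw [Nat.cast_pred (Nat.pow_pos (by omega))]; push_cast; rfl
  rw [← e1, ← e2, Int.natCast_emultiplicity, Int.natCast_emultiplicity,
    ← padicValNat_eq_emultiplicity hA, ← padicValNat_eq_emultiplicity hB] at key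
  exact_mod_cast key

/-- The `r`-adic valuation of `∏_{i=1}^n (q^{2i} - 1)`, for `n < r`, `r` odd. -/
theorem val_sum2 (hq : 2 ≤ q) (hrq : ¬ r ∣ q) (hr2 : r ≠ 2) (n : ℕ) (hn : n < r) :
    ∑ j ∈ Finset.range n, padicValNat r (q ^ (2 * (j + 1)) - 1) =
      ((Finset.Icc 1 n).filter (fun i => orderOf (q : ZMod r) ∣ 2 * i)).card *
        padicValNat r ((Polynomial.cyclotomic (orderOf (q : ZMod r)) ℤ).eval (q : ℤ)).natAbs := by
  rw [val_cyclotomic r q hq hrq]
  have hr : r.Prime := Fact.out
  set d := orderOf (q : ZMod r) with hd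
  have hd0 : 0 < d := order_pos r q hrq
  induction n with
  | zero => simp
  | succ n ih =>
    have hins : Finset.Icc 1 (n + 1) = insert (n + 1) (Finset.Icc 1 n) := by
      ext i; simp only [Finset.mem_Icc, Finset.mem_insert]; omega
    rw [Finset.sum_range_succ, ih (by omega), hins, Finset.filter_insert]
    by_cases hdv : d ∣ 2 * (n + 1)
    · obtain ⟨k, hk⟩ := hdv
      have hk0 : 0 < k := by
        rcases Nat.eq_zero_or_pos k with h | h
        · subst h; omega
        · exact h
      have hkr : ¬ r ∣ k := by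
        intro h
        have h1 : r ∣ 2 * (n + 1) := by rw [hk]; exact h.mul_left d
        rcases (Nat.Prime.dvd_mul hr).mp h1 with h2 | h2
        · exact hr2 ((Nat.prime_dvd_prime_iff_eq hr Nat.prime_two).mp h2)
        · have := Nat.le_of_dvd (by omega) h2
          omega
      rw [if_pos ⟨k, hk⟩, Finset.card_insert_of_notMem, hk, val_mul' r q hq hrq k hk0 hkr]
      · ring
      · simp
    · have hz : padicValNat r (q ^ (2 * (n + 1)) - 1) = 0 :=
        padicValNat.eq_zero_of_not_dvd (by rw [nat_dvd_iff r q (by omega)]; exact hdv)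
      rw [if_neg hdv, hz, add_zero]

theorem val_Sp {F : Type*} [Field F] [Fintype F] (hrq : ¬ r ∣ Fintype.card F) (hr2 : r ≠ 2)
    (n : ℕ) (hn : n < r) :
    (Nat.card (Matrix.symplecticGroup (Fin n) F)).factorization r =
      ((Finset.Icc 1 n).filter
          (fun i => orderOf ((Fintype.card F : ℕ) : ZMod r) ∣ 2 * i)).card *
        padicValNat r ((Polynomial.cyclotomic (orderOf ((Fintype.card F : ℕ) : ZMod r)) ℤ).eval
          ((Fintype.card F : ℕ) : ℤ)).natAbs := by
  have hr : r.Prime := Fact.out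
  have hq : 2 ≤ Fintype.card F := Fintype.one_lt_card
  rw [Cfsg.Agent.S0245.result rfl n, ← val_sum2 r _ hq hrq hr2 n hn]
  have hne : ∀ i ∈ Finset.range n, Fintype.card F ^ (2 * (i + 1)) - 1 ≠ 0 := by
    intro i _
    have : 2 ^ 1 ≤ Fintype.card F ^ (2 * (i + 1)) :=
      (Nat.pow_le_pow_left hq 1).trans (Nat.pow_le_pow_right (by omega) (by omega))
    omega
  rw [Nat.factorization_mul (Nat.pow_pos (by omega)).ne' (Finset.prod_ne_zero_iff.mpr hne),
    Finsupp.add_apply, Nat.factorization_prod hne, Finsupp.finsetSum_apply,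
    Nat.factorization_eq_zero_of_not_dvd (fun h => hrq (hr.dvd_of_dvd_pow h)), zero_add]
  exact Finset.sum_congr rfl fun i _ => Nat.factorization_def _ hr

/-- The number of `i ≤ n` with `d ∣ 2 i`. -/
theorem card_filter (d : ℕ) (hd : 0 < d) (n : ℕ) :
    ((Finset.Icc 1 n).filter (fun i => d ∣ 2 * i)).card =
      n / (if Even d then d / 2 else d) := by
  rw [← Nat.Ioc_filter_dvd_card_eq_div]
  congr 1
  ext i
  simp only [Finset.mem_filter, Finset.mem_Icc, Finset.mem_Ioc]
  have key : d ∣ 2 * i ↔ (if Even d then d / 2 else d) ∣ i := by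
    split_ifs with he
    · obtain ⟨c, hc⟩ := he
      have hc2 : d / 2 = c := by omega
      rw [hc2, hc, ← two_mul]
      exact Nat.mul_dvd_mul_iff_left (by omega)
    · have hodd : Odd d := Nat.not_even_iff_odd.mp he
      constructor
      · intro h
        exact (Nat.Coprime.dvd_mul_left (Nat.Coprime.symm (Nat.coprime_two_left.mpr hodd))).mp h
      · intro h
        exact h.mul_left 2
  rw [key]
  constructor
  · rintro ⟨⟨h1, h2⟩, h3⟩
    exact ⟨⟨by omega, h2⟩, h3⟩
  · rintro ⟨⟨h1, h2⟩, h3⟩
    exact ⟨⟨by omega, h2⟩, h3⟩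

end nt3

section symp

variable {F W C : Type*} [Field F] [AddCommGroup W] [Module F W] [Group C]

/-- The orthogonal sum of `a` copies of `(W, B)` and `b` hyperbolic planes. -/
noncomputable def sumForm (B : LinearMap.BilinForm F W) (a b : ℕ) :
    LinearMap.BilinForm F ((Fin a → W) × ((Fin b → F) × (Fin b → F))) :=
  LinearMap.mk₂ F
    (fun v v' => ∑ i, B (v.1 i) (v'.1 i) + (v.2.1 ⬝ᵥ v'.2.2 - v'.2.1 ⬝ᵥ v.2.2))
    (by
      intro v v' v''
      simp only [Prod.fst_add, Prod.snd_add, Pi.add_apply, map_add, LinearMap.add_apply,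
        Finset.sum_add_distrib, add_dotProduct, dotProduct_add]
      ring)
    (by
      intro c v v'
      simp only [Prod.smul_fst, Prod.smul_snd, Pi.smul_apply, map_smul, LinearMap.smul_apply,
        smul_dotProduct, dotProduct_smul, smul_eq_mul]
      rw [← Finset.mul_sum]
      ring)
    (by
      intro v v' v''
      simp only [Prod.fst_add, Prod.snd_add, Pi.add_apply, map_add,
        Finset.sum_add_distrib, add_dotProduct, dotProduct_add]
      ring)
    (by
      intro c v v'
      simp only [Prod.smul_fst, Prod.smul_snd, Pi.smul_apply, map_smul,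
        smul_dotProduct, dotProduct_smul, smul_eq_mul]
      rw [← Finset.mul_sum]
      ring)

theorem sumForm_apply (B : LinearMap.BilinForm F W) (a b : ℕ)
    (v v' : (Fin a → W) × ((Fin b → F) × (Fin b → F))) :
    sumForm B a b v v' = ∑ i, B (v.1 i) (v'.1 i) + (v.2.1 ⬝ᵥ v'.2.2 - v'.2.1 ⬝ᵥ v.2.2) := rfl

/-- The torus `C^a` acting on the orthogonal sum. -/
noncomputable def sumRep (ρ : C →* (W →ₗ[F] W)) (a b : ℕ) :
    (Fin a → C) →* (((Fin a → W) × ((Fin b → F) × (Fin b → F))) →ₗ[F]
      ((Fin a → W) × ((Fin b → F) × (Fin b → F)))) where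
  toFun u :=
    { toFun := fun v => (fun i => ρ (u i) (v.1 i), v.2)
      map_add' := by
        intro x y
        ext i <;> simp
      map_smul' := by
        intro c x
        ext i <;> simp }
  map_one' := by
    ext x i <;> simp
  map_mul' := by
    intro u v
    ext x i <;> simp

theorem sumRep_apply (ρ : C →* (W →ₗ[F] W)) (a b : ℕ) (u : Fin a → C)
    (v : (Fin a → W) × ((Fin b → F) × (Fin b → F))) :
    sumRep ρ a b u v = (fun i => ρ (u i) (v.1 i), v.2) := rfl

theorem symp_torus [FiniteDimensional F W]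
    (B : LinearMap.BilinForm F W) (hA : B.IsAlt) (hnd : ∀ x, (∀ y, B x y = 0) → x = 0)
    (c : ℕ) (hdim : Module.finrank F W = 2 * c)
    (ρ : C →* (W →ₗ[F] W)) (hρ : Function.Injective ρ)
    (hB : ∀ g x y, B (ρ g x) (ρ g y) = B x y) (n : ℕ) :
    ∃ φ : (Fin (n / c) → C) →* Matrix.symplecticGroup (Fin n) F, Function.Injective φ := by
  classical
  refine Cfsg.Agent.Lib.Helper15.Embed.symp_embed (sumForm B (n / c) (n % c)) ?_ ?_ n ?_
    (sumRep ρ (n / c) (n % c)) ?_ ?_
  · intro v
    rw [sumForm_apply]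
    simp [hA (v.1 _)]
  · intro v hv
    have h1 : ∀ i, v.1 i = 0 := by
      intro i
      apply hnd
      intro y
      have := hv (Pi.single i y, 0)
      rw [sumForm_apply] at this
      simp only [Prod.snd_zero, Prod.fst_zero, dotProduct_zero, zero_dotProduct, sub_zero,
        add_zero] at this
      rw [Finset.sum_eq_single i] at this
      · simpa using this
      · intro j _ hj
        simp [Pi.single_eq_of_ne hj]
      · intro h; exact absurd (Finset.mem_univ i) h
    have h2 : ∀ j, v.2.1 j = 0 := by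
      intro j
      have := hv (0, (0, Pi.single j 1))
      rw [sumForm_apply] at this
      simpa using this
    have h3 : ∀ j, v.2.2 j = 0 := by
      intro j
      have := hv (0, (Pi.single j 1, 0))
      rw [sumForm_apply] at this
      simpa using this
    ext i
    · exact h1 i
    · exact h2 i
    · exact h3 i
  · rw [Module.finrank_prod, Module.finrank_prod, Module.finrank_pi_fintype,
      Module.finrank_fintype_fun_eq_card]
    simp only [hdim, Finset.sum_const, Finset.card_univ, Fintype.card_fin, smul_eq_mul]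
    have := Nat.div_add_mod' n c
    nlinarith
  · intro u v h
    funext i
    apply hρ
    ext w
    have := congrArg (fun L => (L (Pi.single i w, 0)).1 i) h
    simpa [sumRep_apply] using this
  · intro u x y
    rw [sumForm_apply, sumForm_apply]
    simp only [sumRep_apply, hB]

end symp

section data

variable {F K C : Type*} [Field F] [Field K] [Algebra F K] [FiniteDimensional F K]
  [Algebra.IsSeparable F K] [Group C]

theorem trace_nondeg (x : K) (h : ∀ y, Algebra.trace F K (x * y) = 0) : x = 0 := by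
  have := traceForm_nondegenerate F K
  exact this.1 x (fun y => by rw [Algebra.traceForm_apply]; exact h y)

/-- hyperbolic form on `K × K`. -/
noncomputable def hypForm (F K : Type*) [Field F] [Field K] [Algebra F K] :
    LinearMap.BilinForm F (K × K) :=
  LinearMap.mk₂ F (fun v v' => Algebra.trace F K (v.1 * v'.2 - v'.1 * v.2))
    (by intro v v' v''; rw [← map_add]; congr 1; simp only [Prod.fst_add, Prod.snd_add]; ring)
    (by
      intro c v v'
      rw [← map_smul]; congr 1
      simp only [Prod.smul_fst, Prod.smul_snd, smul_sub, smul_mul_assoc, mul_smul_comm])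
    (by intro v v' v''; rw [← map_add]; congr 1; simp only [Prod.fst_add, Prod.snd_add]; ring)
    (by
      intro c v v'
      rw [← map_smul]; congr 1
      simp only [Prod.smul_fst, Prod.smul_snd, smul_sub, smul_mul_assoc, mul_smul_comm])

noncomputable def hypRep (F K : Type*) [Field F] [Field K] [Algebra F K] :
    Kˣ →* ((K × K) →ₗ[F] (K × K)) where
  toFun u :=
    { toFun := fun v => ((u : K) * v.1, ((u⁻¹ : Kˣ) : K) * v.2)
      map_add' := by intro x y; ext <;> simp [mul_add]
      map_smul' := by intro c x; ext <;> simp }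
  map_one' := by ext x <;> simp
  map_mul' := by
    intro u v
    apply LinearMap.ext
    intro x
    refine Prod.ext ?_ ?_
    · show ((u * v : Kˣ) : K) * x.1 = (u : K) * ((v : K) * x.1)
      rw [Units.val_mul, mul_assoc]
    · show (((u * v)⁻¹ : Kˣ) : K) * x.2 = ((u⁻¹ : Kˣ) : K) * (((v⁻¹ : Kˣ) : K) * x.2)
      rw [mul_inv, Units.val_mul, mul_assoc]

theorem torus_odd (c : ℕ) (hc : Module.finrank F K = c) (ψ : C →* Kˣ)
    (hψ : Function.Injective ψ) (n : ℕ) :
    ∃ φ : (Fin (n / c) → C) →* Matrix.symplecticGroup (Fin n) F, Function.Injective φ := by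
  refine symp_torus (hypForm F K) ?_ ?_ c ?_ ((hypRep F K).comp ψ) ?_ ?_ n
  · intro v
    show Algebra.trace F K (v.1 * v.2 - v.1 * v.2) = 0
    rw [sub_self, map_zero]
  · intro v hv
    have h1 : v.1 = 0 := by
      apply trace_nondeg (F := F)
      intro y
      have := hv (0, y)
      change Algebra.trace F K (v.1 * y - 0 * v.2) = 0 at this
      rwa [zero_mul, sub_zero] at this
    have h2 : v.2 = 0 := by
      apply trace_nondeg (F := F)
      intro y
      have := hv (y, 0)
      change Algebra.trace F K (v.1 * 0 - y * v.2) = 0 at this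
      rw [mul_zero, zero_sub, map_neg, neg_eq_zero] at this
      rwa [mul_comm]
    exact Prod.ext h1 h2
  · rw [Module.finrank_prod, hc]; ring
  · intro s t h
    apply hψ
    apply Units.ext
    have := congrArg (fun L : (K × K) →ₗ[F] (K × K) => (L (1, 0)).1) h
    simpa [hypRep] using this
  · intro g x y
    show Algebra.trace F K (((ψ g : Kˣ) : K) * x.1 * ((((ψ g)⁻¹ : Kˣ) : K) * y.2) -
      ((ψ g : Kˣ) : K) * y.1 * ((((ψ g)⁻¹ : Kˣ) : K) * x.2)) =
      Algebra.trace F K (x.1 * y.2 - y.1 * x.2)
    congr 1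
    have : ((ψ g : Kˣ) : K) * (((ψ g)⁻¹ : Kˣ) : K) = 1 := by simp
    linear_combination (x.1 * y.2 - y.1 * x.2) * this

/-- hermitian-type alternating form on `K`. -/
noncomputable def hermForm (σ : K ≃ₐ[F] K) (θ : K) : LinearMap.BilinForm F K :=
  LinearMap.mk₂ F (fun x y => Algebra.trace F K (θ * (x * σ y - σ x * y)))
    (by intro v v' v''; rw [← map_add]; congr 1; simp only [map_add]; ring)
    (by
      intro c v v'
      rw [← map_smul]; congr 1
      simp only [map_smul, smul_mul_assoc, mul_smul_comm]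
      try rw [← smul_sub, mul_smul_comm])
    (by intro v v' v''; rw [← map_add]; congr 1; simp only [map_add]; ring)
    (by
      intro c v v'
      rw [← map_smul]; congr 1
      simp only [map_smul, smul_mul_assoc, mul_smul_comm]
      try rw [← smul_sub, mul_smul_comm])

noncomputable def mulRep (F K : Type*) [Field F] [Field K] [Algebra F K] :
    Kˣ →* (K →ₗ[F] K) where
  toFun u :=
    { toFun := fun v => (u : K) * v
      map_add' := by intro x y; simp [mul_add]
      map_smul' := by intro c x; simp }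
  map_one' := by ext x; simp
  map_mul' := by
    intro u v
    ext x; simp [mul_assoc]

theorem torus_even (c : ℕ) (hc : Module.finrank F K = 2 * c) (σ : K ≃ₐ[F] K)
    (hσ : ∀ x, σ (σ x) = x) (θ : K) (hθ : σ θ ≠ θ) (ψ : C →* Kˣ)
    (hψ : Function.Injective ψ) (hψ1 : ∀ t, ((ψ t : Kˣ) : K) * σ (ψ t) = 1) (n : ℕ) :
    ∃ φ : (Fin (n / c) → C) →* Matrix.symplecticGroup (Fin n) F, Function.Injective φ := by
  refine symp_torus (hermForm σ θ) ?_ ?_ c hc ((mulRep F K).comp ψ) ?_ ?_ n
  · intro v
    show Algebra.trace F K (θ * (v * σ v - σ v * v)) = 0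
    rw [mul_comm v, sub_self, mul_zero, map_zero]
  · intro x hx
    have h1 : ∀ y, Algebra.trace F K ((σ θ - θ) * σ x * y) = 0 := by
      intro y
      have h := hx y
      change Algebra.trace F K (θ * (x * σ y - σ x * y)) = 0 at h
      have h2 : Algebra.trace F K (θ * (x * σ y)) = Algebra.trace F K (σ θ * (σ x * y)) := by
        rw [← Algebra.trace_eq_of_algEquiv σ (θ * (x * σ y))]
        simp only [map_mul, hσ]
      rw [mul_sub, map_sub, h2, ← map_sub] at h
      rw [← h]; congr 1; ring
    have h3 := trace_nondeg (F := F) _ h1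
    rcases mul_eq_zero.mp h3 with h4 | h4
    · exact absurd (sub_eq_zero.mp h4) hθ
    · simpa using h4
  · intro s t h
    apply hψ
    apply Units.ext
    have := congrArg (fun L : K →ₗ[F] K => L 1) h
    simpa [mulRep] using this
  · intro g x y
    show Algebra.trace F K (θ * (((ψ g : Kˣ) : K) * x * σ (((ψ g : Kˣ) : K) * y) -
      σ (((ψ g : Kˣ) : K) * x) * (((ψ g : Kˣ) : K) * y))) =
      Algebra.trace F K (θ * (x * σ y - σ x * y))
    congr 1
    rw [map_mul, map_mul]
    linear_combination θ * (x * σ y - σ x * y) * hψ1 g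

end data

section final

variable (r : ℕ) [Fact r.Prime]

theorem frob_pow_apply {F : Type*} [Field F] [Finite F] (p : ℕ) [Fact p.Prime] [CharP F p]
    (d : ℕ) [NeZero d] (j : ℕ) (x : FiniteField.Extension F p d) :
    ((FiniteField.Extension.frob F p d) ^ j) x = x ^ (Nat.card F ^ j) := by
  induction j generalizing x with
  | zero => simp
  | succ j ih =>
    rw [pow_succ, AlgEquiv.mul_apply, ih, FiniteField.Extension.frob_apply, ← pow_mul, pow_succ,
      mul_comm]

theorem exists_torus_Sp {F : Type*} [Field F] [Fintype F] (hrq : ¬ r ∣ Fintype.card F) (n k : ℕ)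
    (hk : r ^ k ∣ Fintype.card F ^ orderOf ((Fintype.card F : ℕ) : ZMod r) - 1) :
    ∃ φ : (Fin (n / (if Even (orderOf ((Fintype.card F : ℕ) : ZMod r)) then
          orderOf ((Fintype.card F : ℕ) : ZMod r) / 2
        else orderOf ((Fintype.card F : ℕ) : ZMod r))) →
        Multiplicative (ZMod (r ^ k))) →* Matrix.symplecticGroup (Fin n) F,
      Function.Injective φ := by
  have hr : r.Prime := Fact.out
  have hq : 2 ≤ Fintype.card F := Fintype.one_lt_card
  set d := orderOf ((Fintype.card F : ℕ) : ZMod r) with hd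
  have hd0 : 0 < d := order_pos r _ hrq
  obtain ⟨p, hp⟩ := CharP.exists F
  have := hp
  have : Fact p.Prime := ⟨CharP.char_is_prime F p⟩
  have : NeZero d := ⟨hd0.ne'⟩
  let K := FiniteField.Extension F p d
  letI : Fintype K := Fintype.ofFinite K
  have hKc : Fintype.card K = Fintype.card F ^ d := by
    rw [← Nat.card_eq_fintype_card, FiniteField.natCard_extension F p d, Nat.card_eq_fintype_card]
  have hKr : Module.finrank F K = d := FiniteField.finrank_extension F p d
  obtain ⟨ψ, hψ⟩ := exists_cyclic_hom K (r ^ k) (by rw [hKc]; exact hk)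
  by_cases hev : Even d
  · rw [if_pos hev]
    obtain ⟨c, hc⟩ := hev
    have hc2 : d / 2 = c := by omega
    have hc0 : 0 < c := by omega
    rw [hc2]
    let σ : K ≃ₐ[F] K := (FiniteField.Extension.frob F p d) ^ c
    have hσ : ∀ x : K, σ x = x ^ (Fintype.card F ^ c) := by
      intro x
      have := frob_pow_apply p d c x
      rwa [Nat.card_eq_fintype_card] at this
    have hσ2 : ∀ x : K, σ (σ x) = x := by
      intro x
      rw [hσ, hσ, ← pow_mul, ← pow_add, ← hc, ← hKc, FiniteField.pow_card]
    have hlt : Fintype.card F ^ c < Fintype.card F ^ d :=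
      Nat.pow_lt_pow_right (by omega) (by omega)
    have hc1 : 2 ^ 1 ≤ Fintype.card F ^ c :=
      (Nat.pow_le_pow_left hq 1).trans (Nat.pow_le_pow_right (by omega) hc0)
    -- theta
    obtain ⟨g, hg⟩ := IsCyclic.exists_ofOrder_eq_natCard (α := Kˣ)
    have hgθ : σ (g : K) ≠ (g : K) := by
      intro h
      rw [hσ] at h
      have h1 : (g : K) ^ (Fintype.card F ^ c - 1) = 1 := by
        have h2 : (g : K) ^ (Fintype.card F ^ c - 1) * g = 1 * g := by
          rw [← pow_succ, Nat.sub_add_cancel (by omega), h, one_mul]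
        exact mul_right_cancel₀ g.ne_zero h2
      have h3 : g ^ (Fintype.card F ^ c - 1) = 1 := Units.ext (by simpa using h1)
      have h4 := orderOf_dvd_of_pow_eq_one h3
      rw [hg, Nat.card_units, Nat.card_eq_fintype_card, hKc] at h4
      have := Nat.le_of_dvd (by omega) h4
      omega
    -- norm one
    have hdvd : r ^ k ∣ Fintype.card F ^ c + 1 := by
      have h1 : Fintype.card F ^ d - 1 = (Fintype.card F ^ c - 1) * (Fintype.card F ^ c + 1) := by
        rw [hc, pow_add]
        zify [Nat.one_le_two_pow.trans hc1, Nat.one_le_two_pow.trans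
          (hc1.trans (Nat.le_mul_of_pos_right _ (by omega : 0 < Fintype.card F ^ c)))]
        ring
      rw [h1] at hk
      have h2 : ¬ r ∣ Fintype.card F ^ c - 1 := by
        rw [nat_dvd_iff r _ (by omega)]
        intro h
        have := Nat.le_of_dvd hc0 h
        omega
      exact (Nat.Coprime.dvd_mul_left
        (Nat.Coprime.pow_left _ ((Nat.Prime.coprime_iff_not_dvd hr).mpr h2))).mp hk
    have hψ1 : ∀ t, ((ψ t : Kˣ) : K) * σ (ψ t) = 1 := by
      intro t
      rw [hσ, ← pow_succ']
      have h1 : (ψ t) ^ (r ^ k) = 1 := by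
        rw [← map_pow]
        have := pow_card_eq_one' (G := Multiplicative (ZMod (r ^ k))) (x := t)
        rw [(Nat.card_congr Multiplicative.toAdd).trans (Nat.card_zmod _)] at this
        rw [this, map_one]
      obtain ⟨e, he⟩ := hdvd
      have h2 : (ψ t) ^ (Fintype.card F ^ c + 1) = 1 := by rw [he, pow_mul, h1, one_pow]
      have := congrArg Units.val h2
      simpa using this
    exact torus_even (F := F) c (by rw [hKr, hc]; ring) σ hσ2 (g : K) hgθ ψ hψ hψ1 n
  · rw [if_neg hev]
    exact torus_odd (F := F) d hKr ψ hψ n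

end final

end Cfsg.Agent.Lib.Helper14.SylowTorus
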