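import Mathlib
import Cfsg.Agent.Lib.Helper14.WeightBound

namespace Cfsg.Agent.Lib.Helper14.WeightBound

variable {G : Type*} [Group G] {K : Type*} [Field K] {d : ℕ}

theorem weight_bound [IsAlgClosed K] (ρ : G →* GL (Fin d) K) (p : ℕ) [Fact p.Prime]
    (hp : (p : K) ≠ 0) (Q : Subgroup G) [Finite Q]
    (hQc : ∀ x ∈ Q, ∀ y ∈ Q, x * y = y * x) (hQp : ∀ x ∈ Q, x ^ p = 1)
    (htrans : ∀ x ∈ Q, ∀ y ∈ Q, x ≠ 1 → y ≠ 1 →
      ∃ g ∈ Subgroup.normalizer (Q : Set G), g * x * g⁻¹ = y)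
    (hnt : ∃ x ∈ Q, ρ x ≠ 1) : Nat.card Q - 1 ≤ d := by
  classical
  have hind := indep_E ρ Q p hp hQc hQp
  let _ : Fintype {χ : Q → K // E ρ Q χ ≠ ⊥} := hind.fintypeNeBotOfFiniteDimensional
  have hW : Fintype.card {χ : Q → K // E ρ Q χ ≠ ⊥} ≤ d := by
    have := hind.subtype_ne_bot_le_finrank
    simpa using this
  let _ : Fintype Q := Fintype.ofFinite Q
  have hQp' : ∀ x : Q, x ^ p = 1 := fun x => Subtype.ext (by simpa using hQp x x.2)
  -- a nontrivial weight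
  obtain ⟨χ₀, hχ₀, x₀, hx₀⟩ : ∃ χ₀ : Q → K, E ρ Q χ₀ ≠ ⊥ ∧ ∃ x₀ : Q, χ₀ x₀ ≠ 1 := by
    by_contra hcon
    push Not at hcon
    obtain ⟨x, hxQ, hx⟩ := hnt
    apply hx
    rw [← T_eq_one_iff]
    apply LinearMap.ext
    intro v
    have hv : v ∈ (⨆ χ : Q → K, E ρ Q χ) := by rw [iSup_E ρ Q p hp hQc hQp]; trivial
    refine Submodule.iSup_induction (fun χ => E ρ Q χ) (motive := fun v => T ρ x v = v) hv
      ?_ ?_ ?_
    · intro χ w hw
      by_cases hb : E ρ Q χ = ⊥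
      · rw [hb] at hw; rw [(Submodule.mem_bot K).mp hw]; simp
      · have h1 := hcon χ hb ⟨x, hxQ⟩
        rw [mem_E] at hw
        have := hw ⟨x, hxQ⟩
        rw [h1, one_smul] at this; exact this
    · simp
    · intro a b ha hb; rw [map_add, ha, hb]
  obtain ⟨φ₀, hφ₀⟩ := exists_hom ρ Q χ₀ hχ₀
  have hζp : (φ₀ x₀) ^ p = 1 := by rw [← map_pow, hQp', map_one]
  have hζ1 : φ₀ x₀ ≠ 1 := by
    intro h; apply hx₀; rw [← hφ₀, h]; rfl
  have hx₀1 : x₀ ≠ 1 := by
    rintro rfl; exact hζ1 (map_one φ₀)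
  -- the set of nontrivial weights
  let X : Finset {χ : Q → K // E ρ Q χ ≠ ⊥} := Finset.univ.filter (fun w => ∃ y, w.1 y ≠ 1)
  have hX0 : (⟨χ₀, hχ₀⟩ : {χ : Q → K // E ρ Q χ ≠ ⊥}) ∈ X :=
    Finset.mem_filter.mpr ⟨Finset.mem_univ _, x₀, hx₀⟩
  let r : {χ : Q → K // E ρ Q χ ≠ ⊥} → Q → Prop := fun w x => w.1 x = ((φ₀ x₀ : Kˣ) : K)
  have hdc := Finset.sum_card_bipartiteAbove_eq_sum_card_bipartiteBelow (s := X)
    (t := (Finset.univ : Finset Q)) r
  -- left side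
  have hL : ∀ w ∈ X, (Finset.univ.bipartiteAbove r w).card * p = Fintype.card Q := by
    intro w hw
    obtain ⟨y, hy⟩ := (Finset.mem_filter.mp hw).2
    obtain ⟨φ, hφ⟩ := exists_hom ρ Q w.1 w.2
    have h1 := fiber_card p hQp' φ y (by intro h; apply hy; rw [← hφ, h]; rfl) (φ₀ x₀) hζp
    rw [← h1]
    congr 2
    ext x
    simp only [Finset.bipartiteAbove, Finset.mem_filter, Finset.mem_univ, true_and, r, hφ]
  -- right side
  have hle : ∀ x y : Q, x ≠ 1 → y ≠ 1 →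
      (X.bipartiteBelow r x).card ≤ (X.bipartiteBelow r y).card := by
    intro x y hx hy
    obtain ⟨g, hg, hgxy⟩ := htrans x x.2 y y.2 (fun h => hx (Subtype.ext h))
      (fun h => hy (Subtype.ext h))
    refine Finset.card_le_card_of_injOn
      (fun w => ⟨w.1 ∘ cj Q g hg, E_conj ρ Q g hg w.1 w.2⟩) ?_ ?_
    · intro w hw
      simp only [Finset.bipartiteBelow, Finset.coe_filter, Set.mem_ofPred_eq, X,
        Finset.mem_filter, Finset.mem_univ, true_and, r] at hw ⊢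
      obtain ⟨⟨y₁, hy₁⟩, hwx⟩ := hw
      refine ⟨?_, ?_⟩
      · obtain ⟨z, hz⟩ := cj_surj Q g hg y₁
        exact ⟨z, by rw [Function.comp_apply, hz]; exact hy₁⟩
      · have : cj Q g hg y = x := by
          apply Subtype.ext
          show g⁻¹ * (y : G) * g = x
          rw [← hgxy]; group
        rw [Function.comp_apply, this]; exact hwx
    · intro w _ w' _ h
      apply Subtype.ext
      have h1 : w.1 ∘ cj Q g hg = w'.1 ∘ cj Q g hg := congrArg Subtype.val h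
      funext z
      obtain ⟨z', rfl⟩ := cj_surj Q g hg z
      exact congrFun h1 z'
  have hR1 : (X.bipartiteBelow r 1).card = 0 := by
    rw [Finset.card_eq_zero, Finset.eq_empty_iff_forall_notMem]
    intro w hw
    simp only [Finset.bipartiteBelow, Finset.mem_filter, r] at hw
    obtain ⟨φ, hφ⟩ := exists_hom ρ Q w.1 w.2
    rw [← hφ, map_one] at hw
    exact hζ1 (Units.ext hw.2.symm)
  have hR : ∑ x : Q, (X.bipartiteBelow r x).card =
      (Fintype.card Q - 1) * (X.bipartiteBelow r x₀).card := by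
    rw [← Finset.sum_erase (Finset.univ : Finset Q) hR1,
      Finset.sum_congr rfl (fun x hx => le_antisymm (hle x x₀ (Finset.ne_of_mem_erase hx) hx₀1)
        (hle x₀ x hx₀1 (Finset.ne_of_mem_erase hx))),
      Finset.sum_const, Finset.card_erase_of_mem (Finset.mem_univ _), Finset.card_univ,
      smul_eq_mul]
  have hmain : X.card * Fintype.card Q = (Fintype.card Q - 1) * ((X.bipartiteBelow r x₀).card * p) := by
    rw [← mul_assoc, ← hR, ← hdc, Finset.sum_mul, Finset.sum_congr rfl hL, Finset.sum_const,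
      smul_eq_mul]
  have hcop : (Fintype.card Q - 1).Coprime (Fintype.card Q) := by
    have : 0 < Fintype.card Q := Fintype.card_pos
    obtain ⟨m, hm⟩ : ∃ m, Fintype.card Q = m + 1 := ⟨_, (Nat.succ_pred_eq_of_pos this).symm⟩
    rw [hm, Nat.add_sub_cancel]
    simp
  have hdvd : (Fintype.card Q - 1) ∣ X.card :=
    (Nat.Coprime.dvd_mul_right hcop).mp (Dvd.intro _ hmain.symm)
  have hXpos : 0 < X.card := Finset.card_pos.mpr ⟨_, hX0⟩
  calc Nat.card Q - 1 = Fintype.card Q - 1 := by rw [Nat.card_eq_fintype_card]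
    _ ≤ X.card := Nat.le_of_dvd hXpos hdvd
    _ ≤ Fintype.card {χ : Q → K // E ρ Q χ ≠ ⊥} := Finset.card_le_univ _
    _ ≤ d := hW

end Cfsg.Agent.Lib.Helper14.WeightBound
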