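import Mathlib
import Cfsg.Agent.Lib.Helper14.WeightBound2

namespace Cfsg.Agent.Lib.Helper14.WeightSL

open Matrix

variable {F : Type*} [Field F] {n : ℕ}

/-- rank-one transvection `1 + a φᵀ` -/
def tau (a φ : Fin n → F) (h : φ ⬝ᵥ a = 0) : SpecialLinearGroup (Fin n) F :=
  ⟨1 + vecMulVec a φ, by
    rw [vecMulVec_eq (Fin 1), det_one_add_replicateCol_mul_replicateRow, h, add_zero]⟩

theorem tau_coe (a φ : Fin n → F) (h : φ ⬝ᵥ a = 0) :
    (tau a φ h : Matrix (Fin n) (Fin n) F) = 1 + vecMulVec a φ := rfl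

theorem tau_mulVec (a φ : Fin n → F) (h : φ ⬝ᵥ a = 0) (x : Fin n → F) :
    (tau a φ h : Matrix (Fin n) (Fin n) F) *ᵥ x = x + (φ ⬝ᵥ x) • a := by
  rw [tau_coe, add_mulVec, one_mulVec, vecMulVec_mulVec, op_smul_eq_smul]

variable [NeZero n]

/-- the vector `e₀` -/
def e0 (F : Type*) [Field F] (n : ℕ) [NeZero n] : Fin n → F := Pi.single 0 1

theorem e0_dot (a : Fin n → F) : e0 F n ⬝ᵥ a = a 0 := single_one_dotProduct _ _

/-- elements of the abelian group `Q` -/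
def tau0 (a : Fin n → F) (ha : a 0 = 0) : SpecialLinearGroup (Fin n) F :=
  tau a (e0 F n) (by rw [e0_dot]; exact ha)

theorem tau0_coe (a : Fin n → F) (ha : a 0 = 0) :
    (tau0 a ha : Matrix (Fin n) (Fin n) F) = 1 + vecMulVec a (e0 F n) := rfl

theorem tau0_add (a b : Fin n → F) (ha : a 0 = 0) (hb : b 0 = 0) :
    tau0 a ha * tau0 b hb = tau0 (a + b) (by rw [Pi.add_apply, ha, hb, add_zero]) := by
  apply Subtype.ext
  show (1 + vecMulVec a (e0 F n)) * (1 + vecMulVec b (e0 F n)) = 1 + vecMulVec (a + b) (e0 F n)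
  rw [add_mul, one_mul, mul_add, mul_one, vecMulVec_mul_vecMulVec, e0_dot, hb, zero_smul,
    add_vecMulVec]
  have : vecMulVec a (0 : Fin n → F) = 0 := by ext i j; simp [vecMulVec_apply]
  rw [this, add_zero, add_assoc, add_comm (vecMulVec b _)]

theorem tau0_zero : tau0 (0 : Fin n → F) rfl = 1 := by
  apply Subtype.ext
  show 1 + vecMulVec (0 : Fin n → F) (e0 F n) = 1
  have : vecMulVec (0 : Fin n → F) (e0 F n) = 0 := by ext i j; simp [vecMulVec_apply]
  rw [this, add_zero]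

theorem tau0_inj (a b : Fin n → F) (ha : a 0 = 0) (hb : b 0 = 0) (h : tau0 a ha = tau0 b hb) :
    a = b := by
  funext i
  have h1 : (tau0 a ha : Matrix (Fin n) (Fin n) F) i 0 = (tau0 b hb : Matrix (Fin n) (Fin n) F) i 0 := by
    rw [h]
  simpa [tau0_coe, vecMulVec_apply, e0] using h1

theorem tau0_pow (a : Fin n → F) (ha : a 0 = 0) (k : ℕ) :
    (tau0 a ha) ^ k = tau0 (k • a) (by rw [Pi.smul_apply, ha, smul_zero]) := by
  induction k with
  | zero => simp [tau0_zero]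
  | succ k ih =>
    rw [pow_succ, ih, tau0_add]
    congr 1
    rw [succ_nsmul]

/-- the abelian subgroup `Q` -/
def Qs (F : Type*) [Field F] (n : ℕ) [NeZero n] : Subgroup (SpecialLinearGroup (Fin n) F) where
  carrier := {g | ∃ (a : Fin n → F) (ha : a 0 = 0), g = tau0 a ha}
  mul_mem' := by
    rintro _ _ ⟨a, ha, rfl⟩ ⟨b, hb, rfl⟩
    exact ⟨a + b, _, tau0_add a b ha hb⟩
  one_mem' := ⟨0, rfl, tau0_zero.symm⟩
  inv_mem' := by
    rintro _ ⟨a, ha, rfl⟩
    refine ⟨-a, by rw [Pi.neg_apply, ha, neg_zero], ?_⟩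
    apply inv_eq_of_mul_eq_one_right
    rw [tau0_add]
    simp only [add_neg_cancel]
    exact tau0_zero

theorem mem_Qs (g : SpecialLinearGroup (Fin n) F) :
    g ∈ Qs F n ↔ ∃ (a : Fin n → F) (ha : a 0 = 0), g = tau0 a ha := Iff.rfl

theorem Qs_comm (x y : SpecialLinearGroup (Fin n) F) (hx : x ∈ Qs F n) (hy : y ∈ Qs F n) :
    x * y = y * x := by
  obtain ⟨a, ha, rfl⟩ := hx
  obtain ⟨b, hb, rfl⟩ := hy
  rw [tau0_add, tau0_add]
  congr 1
  rw [add_comm]

theorem Qs_pow (p : ℕ) [CharP F p] (x : SpecialLinearGroup (Fin n) F) (hx : x ∈ Qs F n) :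
    x ^ p = 1 := by
  obtain ⟨a, ha, rfl⟩ := hx
  rw [tau0_pow, ← tau0_zero]
  congr 1
  funext i
  rw [Pi.smul_apply, nsmul_eq_mul, CharP.cast_eq_zero, zero_mul]; rfl

/-- conjugation by an element whose first row is `e₀`. -/
theorem conj_tau0 (g : SpecialLinearGroup (Fin n) F)
    (hg : e0 F n ᵥ* (g : Matrix (Fin n) (Fin n) F) = e0 F n) (a : Fin n → F) (ha : a 0 = 0) :
    g * tau0 a ha * g⁻¹ = tau0 ((g : Matrix (Fin n) (Fin n) F) *ᵥ a)
      (by
        have := e0_dot (F := F) ((g : Matrix (Fin n) (Fin n) F) *ᵥ a)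
        rw [dotProduct_mulVec, hg, e0_dot] at this
        rw [← this]; exact ha) := by
  rw [mul_inv_eq_iff_eq_mul]
  apply Subtype.ext
  show (g : Matrix (Fin n) (Fin n) F) * (1 + vecMulVec a (e0 F n)) =
    (1 + vecMulVec ((g : Matrix (Fin n) (Fin n) F) *ᵥ a) (e0 F n)) * (g : Matrix (Fin n) (Fin n) F)
  rw [mul_add, mul_one, add_mul, one_mul, mul_vecMulVec, vecMulVec_mul, hg]

theorem row_inv (g : SpecialLinearGroup (Fin n) F)
    (hg : e0 F n ᵥ* (g : Matrix (Fin n) (Fin n) F) = e0 F n) :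
    e0 F n ᵥ* ((g⁻¹ : SpecialLinearGroup (Fin n) F) : Matrix (Fin n) (Fin n) F) = e0 F n := by
  have h1 : (g : Matrix (Fin n) (Fin n) F) *
      ((g⁻¹ : SpecialLinearGroup (Fin n) F) : Matrix (Fin n) (Fin n) F) = 1 :=
    congrArg Subtype.val (mul_inv_cancel g)
  conv_lhs => rw [← hg]
  rw [vecMul_vecMul, h1, vecMul_one]

theorem mem_normalizer (g : SpecialLinearGroup (Fin n) F)
    (hg : e0 F n ᵥ* (g : Matrix (Fin n) (Fin n) F) = e0 F n) :
    g ∈ Subgroup.normalizer (Qs F n : Set (SpecialLinearGroup (Fin n) F)) := by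
  rw [Subgroup.mem_normalizer_iff]
  intro h
  constructor
  · rintro ⟨a, ha, rfl⟩
    exact ⟨_, _, conj_tau0 g hg a ha⟩
  · rintro ⟨a, ha, h1⟩
    have h2 := conj_tau0 g⁻¹ (row_inv g hg) a ha
    rw [← h1] at h2
    have h3 : h = g⁻¹ * (g * h * g⁻¹) * g⁻¹⁻¹ := by group
    rw [h3, h2]
    exact ⟨_, _, rfl⟩


theorem row_tau (c φ : Fin n → F) (h : φ ⬝ᵥ c = 0) (hc : c 0 = 0) :
    e0 F n ᵥ* (tau c φ h : Matrix (Fin n) (Fin n) F) = e0 F n := by
  rw [tau_coe, vecMul_add, vecMul_one, vecMul_vecMulVec, e0_dot, hc, zero_smul, add_zero]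

end Cfsg.Agent.Lib.Helper14.WeightSL
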