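import Mathlib
import Cfsg.Agent.Lib.Helper14.WeightSL

namespace Cfsg.Agent.Lib.Helper14.WeightSL

open Matrix

variable {F : Type*} [Field F] {n : ℕ} [NeZero n]

/-- mapping `a` to `b` when `b` is not a multiple of `a`. -/
theorem exists_move (a b : Fin n → F) (ha : a 0 = 0) (hb : b 0 = 0) (ha0 : a ≠ 0)
    (hind : ¬ ∃ c : F, b = c • a) :
    ∃ g ∈ Subgroup.normalizer (Qs F n : Set (SpecialLinearGroup (Fin n) F)),
      g * tau0 a ha * g⁻¹ = tau0 b hb := by
  have hli : LinearIndependent F ![a, b] := by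
    rw [LinearIndependent.pair_iff]
    intro s t hst
    have ht : t = 0 := by
      by_contra ht
      apply hind
      refine ⟨-(s / t), ?_⟩
      have h1 : t • b = -(s • a) := eq_neg_of_add_eq_zero_right hst
      have h2 : b = t⁻¹ • (t • b) := by rw [smul_smul, inv_mul_cancel₀ ht, one_smul]
      rw [h2, h1, smul_neg, smul_smul, neg_smul, div_eq_inv_mul]
    subst ht
    rw [zero_smul, add_zero] at hst
    exact ⟨(smul_eq_zero.mp hst).resolve_right ha0, rfl⟩
  obtain ⟨f, hf⟩ := Module.exists_dual_forall_apply_eq_one (s := Set.univ) (v := ![a, b])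
    (linearIndepOn_univ_iff.mpr hli)
  have hfa : f a = 1 := hf 0 (Set.mem_univ _)
  have hfb : f b = 1 := hf 1 (Set.mem_univ _)
  let φ : Fin n → F := fun i => f (fun j => if i = j then 1 else 0)
  have hφ : ∀ x, φ ⬝ᵥ x = f x := by
    intro x
    rw [LinearMap.pi_apply_eq_sum_univ f x]
    simp [dotProduct, φ, mul_comm]
  have h1 : φ ⬝ᵥ (b - a) = 0 := by rw [hφ, map_sub, hfa, hfb, sub_self]
  have h2 : (b - a) 0 = 0 := by rw [Pi.sub_apply, ha, hb, sub_zero]
  refine ⟨tau (b - a) φ h1, mem_normalizer _ (row_tau _ _ h1 h2), ?_⟩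
  rw [conj_tau0 _ (row_tau _ _ h1 h2)]
  congr 1
  rw [tau_mulVec, hφ, hfa, one_smul]; abel

theorem exists_conj (hn : 3 ≤ n) (a b : Fin n → F) (ha : a 0 = 0) (hb : b 0 = 0) (ha0 : a ≠ 0)
    (hb0 : b ≠ 0) :
    ∃ g ∈ Subgroup.normalizer (Qs F n : Set (SpecialLinearGroup (Fin n) F)),
      g * tau0 a ha * g⁻¹ = tau0 b hb := by
  by_cases hind : ∃ c : F, b = c • a
  · obtain ⟨c, rfl⟩ := hind
    have hc : c ≠ 0 := by rintro rfl; exact hb0 (zero_smul _ _)
    obtain ⟨k, hk⟩ : ∃ k, a k ≠ 0 := by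
      by_contra hcon
      push Not at hcon
      exact ha0 (funext hcon)
    have hk0 : k ≠ 0 := by rintro rfl; exact hk ha
    obtain ⟨l, hl0, hlk⟩ : ∃ l : Fin n, l ≠ 0 ∧ l ≠ k := by
      by_contra hcon
      push Not at hcon
      have hsub : (Finset.univ : Finset (Fin n)) ⊆ {0, k} := fun l _ => by
        by_cases h : l = 0
        · simp [h]
        · simp [hcon l h]
      have h1 := Finset.card_le_card hsub
      have h2 : ({0, k} : Finset (Fin n)).card ≤ 2 := Finset.card_le_two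
      rw [Finset.card_univ, Fintype.card_fin] at h1
      omega
    have hu0 : (Pi.single l 1 : Fin n → F) 0 = 0 := Pi.single_eq_of_ne hl0.symm 1
    have huk : (Pi.single l 1 : Fin n → F) k = 0 := Pi.single_eq_of_ne hlk.symm 1
    have hune : (Pi.single l 1 : Fin n → F) ≠ 0 := by
      intro h
      have := congrFun h l
      simp at this
    obtain ⟨g₁, hg₁, h1⟩ := exists_move a (Pi.single l 1) ha hu0 ha0 (by
      rintro ⟨c', hc'⟩
      have h3 := congrFun hc' k
      rw [huk, Pi.smul_apply, smul_eq_mul] at h3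
      have hc'0 : c' = 0 := (mul_eq_zero.mp h3.symm).resolve_right hk
      rw [hc'0, zero_smul] at hc'
      exact hune hc')
    obtain ⟨g₂, hg₂, h2⟩ := exists_move (Pi.single l 1) (c • a) hu0 hb hune (by
      rintro ⟨c', hc'⟩
      have h3 := congrFun hc' k
      rw [Pi.smul_apply, Pi.smul_apply, huk, smul_zero, smul_eq_mul] at h3
      exact (mul_ne_zero hc hk) h3)
    refine ⟨g₂ * g₁, mul_mem hg₂ hg₁, ?_⟩
    rw [← h2, ← h1]; group
  · exact exists_move a b ha hb ha0 hind

theorem exists_not_center (hn : 2 ≤ n) :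
    ∃ x ∈ Qs F n, x ∉ Subgroup.center (SpecialLinearGroup (Fin n) F) := by
  have h1 : (⟨1, by omega⟩ : Fin n) ≠ 0 := by
    intro h
    have := congrArg Fin.val h
    simp at this
  refine ⟨tau0 (Pi.single ⟨1, by omega⟩ 1) (Pi.single_eq_of_ne h1.symm 1), ⟨_, _, rfl⟩, ?_⟩
  rw [Matrix.SpecialLinearGroup.mem_center_iff]
  rintro ⟨r, -, hr⟩
  have := congrFun (congrFun hr ⟨1, by omega⟩) 0
  simp [tau0_coe, vecMulVec_apply, e0, h1] at this

theorem card_Qs [Fintype F] (m : ℕ) : Fintype.card F ^ m ≤ Nat.card (Qs F (m + 1)) := by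
  have hinj : Function.Injective
      (fun b : Fin m → F => (⟨tau0 (Fin.cons 0 b) rfl, _, _, rfl⟩ : Qs F (m + 1))) := by
    intro b b' h
    have h1 := tau0_inj _ _ rfl rfl (congrArg Subtype.val h)
    exact Fin.cons_right_injective _ h1
  have := Nat.card_le_card_of_injective _ hinj
  rwa [Nat.card_fun, Nat.card_eq_fintype_card, Nat.card_eq_fintype_card, Fintype.card_fin]
    at this

end Cfsg.Agent.Lib.Helper14.WeightSL
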