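import Mathlib
import Cfsg.Agent.Lib.Helper14.WeightSL2

namespace Cfsg.Agent.Lib.Helper14.WeightSp

open Matrix Cfsg.Agent.Lib.Helper14.WeightSL

variable {F : Type*} [Field F] {n : ℕ} [NeZero n]

theorem e0_zero : e0 F n 0 = 1 := by simp [e0]

theorem dot_e0 (a : Fin n → F) : a ⬝ᵥ e0 F n = a 0 := by rw [dotProduct_comm, e0_dot]

/-- the symmetric matrix `S(s)` -/
def Sm (s : Fin n → F) : Matrix (Fin n) (Fin n) F :=
  vecMulVec (e0 F n) s + vecMulVec s (e0 F n) - s 0 • vecMulVec (e0 F n) (e0 F n)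

theorem Sm_transpose (s : Fin n → F) : (Sm s)ᵀ = Sm s := by
  unfold Sm
  rw [transpose_sub, transpose_add, transpose_smul, transpose_vecMulVec, transpose_vecMulVec,
    transpose_vecMulVec, add_comm]

theorem Sm_add (s t : Fin n → F) : Sm (s + t) = Sm s + Sm t := by
  unfold Sm
  rw [vecMulVec_add, add_vecMulVec, Pi.add_apply, add_smul]; abel

theorem Sm_apply_zero (s : Fin n → F) (i : Fin n) : Sm s i 0 = s i := by
  simp only [Sm, Matrix.add_apply, Matrix.sub_apply, Matrix.smul_apply, vecMulVec_apply, e0_zero, smul_eq_mul]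
  ring

theorem Sm_zero : Sm (0 : Fin n → F) = 0 := by
  unfold Sm; ext i j; simp [vecMulVec_apply]

/-- the elements `a(s)` -/
def aS (s : Fin n → F) : symplecticGroup (Fin n) F :=
  ⟨fromBlocks 1 (Sm s) 0 1, by
    rw [SymplecticGroup.fromBlocks_mem_iff]
    simp [Sm_transpose]⟩

theorem aS_mul (s t : Fin n → F) : aS s * aS t = aS (s + t) := by
  apply Subtype.ext
  show fromBlocks 1 (Sm s) 0 1 * fromBlocks 1 (Sm t) 0 1 = fromBlocks 1 (Sm (s + t)) 0 1
  rw [fromBlocks_multiply, Sm_add]; simp [add_comm]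

theorem aS_zero : aS (0 : Fin n → F) = 1 := by
  apply Subtype.ext
  show fromBlocks 1 (Sm 0) 0 1 = 1
  rw [Sm_zero, fromBlocks_one]

theorem aS_inj (s t : Fin n → F) (h : aS s = aS t) : s = t := by
  have h1 : Sm s = Sm t := by
    have := congrArg Subtype.val h
    exact (fromBlocks_inj.mp this).2.1
  funext i
  rw [← Sm_apply_zero s i, h1, Sm_apply_zero]

/-- the abelian subgroup -/
def As (F : Type*) [Field F] (n : ℕ) [NeZero n] : Subgroup (symplecticGroup (Fin n) F) where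
  carrier := {x | ∃ s : Fin n → F, x = aS s}
  mul_mem' := by
    rintro _ _ ⟨s, rfl⟩ ⟨t, rfl⟩
    exact ⟨s + t, aS_mul s t⟩
  one_mem' := ⟨0, aS_zero.symm⟩
  inv_mem' := by
    rintro _ ⟨s, rfl⟩
    refine ⟨-s, inv_eq_of_mul_eq_one_right ?_⟩
    rw [aS_mul, add_neg_cancel, aS_zero]

theorem As_comm (x y : symplecticGroup (Fin n) F) (hx : x ∈ As F n) (hy : y ∈ As F n) :
    x * y = y * x := by
  obtain ⟨s, rfl⟩ := hx
  obtain ⟨t, rfl⟩ := hy
  rw [aS_mul, aS_mul, add_comm]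

theorem aS_pow (s : Fin n → F) (k : ℕ) : (aS s) ^ k = aS (k • s) := by
  induction k with
  | zero => simp [aS_zero]
  | succ k ih => rw [pow_succ, ih, aS_mul, succ_nsmul]

theorem As_pow (p : ℕ) [CharP F p] (x : symplecticGroup (Fin n) F) (hx : x ∈ As F n) :
    x ^ p = 1 := by
  obtain ⟨s, rfl⟩ := hx
  rw [aS_pow, ← aS_zero]
  congr 1
  funext i
  rw [Pi.smul_apply, nsmul_eq_mul, CharP.cast_eq_zero, zero_mul]; rfl

/-- Levi-type matrices -/
def gv (v : Fin n → F) : Matrix (Fin n) (Fin n) F := 1 + vecMulVec (e0 F n) v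

def hv (v : Fin n → F) : Matrix (Fin n) (Fin n) F :=
  1 - (1 + v 0)⁻¹ • vecMulVec v (e0 F n)

theorem gv_hv (v : Fin n → F) (hv0 : 1 + v 0 ≠ 0) : (gv v)ᵀ * hv v = 1 := by
  unfold gv hv
  rw [transpose_add, transpose_one, transpose_vecMulVec, add_mul, one_mul, mul_sub, mul_one,
    mul_smul_comm, vecMulVec_mul_vecMulVec, e0_dot]
  ext i j
  simp only [Matrix.add_apply, Matrix.sub_apply, Matrix.smul_apply, Matrix.one_apply, vecMulVec_apply, Pi.smul_apply, smul_eq_mul]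
  field_simp
  ring

def xv (v : Fin n → F) (hv0 : 1 + v 0 ≠ 0) : symplecticGroup (Fin n) F :=
  ⟨fromBlocks (gv v) 0 0 (hv v), by
    rw [SymplecticGroup.fromBlocks_mem_iff]
    simp [gv_hv v hv0]⟩

/-- the action on parameters -/
def Tv (v s : Fin n → F) : Fin n → F :=
  (1 + v 0) • s +
    ((1 + v 0) * s 0 + 2 * (1 + v 0) * (v ⬝ᵥ s) - (1 + v 0) ^ 2 * s 0) • e0 F n

theorem key_rel (v s : Fin n → F) (hv0 : 1 + v 0 ≠ 0) :
    gv v * Sm s = Sm (Tv v s) * hv v := by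
  unfold gv hv Sm
  rw [add_mul, one_mul, mul_sub, mul_add, mul_smul_comm, vecMulVec_mul_vecMulVec,
    vecMulVec_mul_vecMulVec, vecMulVec_mul_vecMulVec, dot_e0, mul_sub, mul_one, mul_smul_comm,
    sub_mul, add_mul, smul_mul_assoc, vecMulVec_mul_vecMulVec, vecMulVec_mul_vecMulVec,
    vecMulVec_mul_vecMulVec, e0_dot]
  have hT : Tv v s ⬝ᵥ v = (1 + v 0) * (v ⬝ᵥ s) +
      ((1 + v 0) * s 0 + 2 * (1 + v 0) * (v ⬝ᵥ s) - (1 + v 0) ^ 2 * s 0) * v 0 := by
    unfold Tv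
    rw [add_dotProduct, smul_dotProduct, smul_dotProduct, e0_dot, dotProduct_comm s v]
    simp only [smul_eq_mul]
  rw [hT]
  ext i j
  simp only [Matrix.add_apply, Matrix.sub_apply, Matrix.smul_apply, vecMulVec_apply, Pi.smul_apply, smul_eq_mul, Tv,
    Pi.add_apply, e0_zero]
  field_simp
  ring

theorem xv_conj (v s : Fin n → F) (hv0 : 1 + v 0 ≠ 0) :
    xv v hv0 * aS s = aS (Tv v s) * xv v hv0 := by
  apply Subtype.ext
  show fromBlocks (gv v) 0 0 (hv v) * fromBlocks 1 (Sm s) 0 1 =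
    fromBlocks 1 (Sm (Tv v s)) 0 1 * fromBlocks (gv v) 0 0 (hv v)
  rw [fromBlocks_multiply, fromBlocks_multiply]
  simp [key_rel v s hv0]

end Cfsg.Agent.Lib.Helper14.WeightSp
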