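import Mathlib
import Cfsg.Agent.Lib.Helper14.WeightSp

namespace Cfsg.Agent.Lib.Helper14.WeightSp

open Matrix Cfsg.Agent.Lib.Helper14.WeightSL Cfsg.Agent.Lib.Helper14.WeightBound

variable {F : Type*} [Field F] {n : ℕ} [NeZero n]

theorem Tv_inj (v : Fin n → F) (hv0 : 1 + v 0 ≠ 0) : Function.Injective (Tv v) := by
  intro s t h
  apply aS_inj
  have h1 := xv_conj v s hv0
  have h2 := xv_conj v t hv0
  rw [h] at h1
  exact mul_left_cancel (h1.trans h2.symm)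

theorem Tv_surj [Finite F] (v : Fin n → F) (hv0 : 1 + v 0 ≠ 0) : Function.Surjective (Tv v) :=
  Finite.injective_iff_surjective.mp (Tv_inj v hv0)

theorem xv_mem_normalizer [Finite F] (v : Fin n → F) (hv0 : 1 + v 0 ≠ 0) :
    xv v hv0 ∈ Subgroup.normalizer (As F n : Set (symplecticGroup (Fin n) F)) := by
  rw [Subgroup.mem_normalizer_iff]
  intro h
  constructor
  · rintro ⟨s, rfl⟩
    exact ⟨Tv v s, by rw [xv_conj, mul_inv_cancel_right]⟩
  · rintro ⟨t, ht⟩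
    obtain ⟨s, rfl⟩ := Tv_surj v hv0 t
    refine ⟨s, ?_⟩
    have h1 : xv v hv0 * h * (xv v hv0)⁻¹ = xv v hv0 * aS s * (xv v hv0)⁻¹ := by
      rw [ht, xv_conj, mul_inv_cancel_right]
    exact mul_left_cancel (mul_right_cancel h1)

theorem Tv_e0 (v : Fin n → F) (z : F) : Tv v (z • e0 F n) = ((1 + v 0) ^ 2 * z) • e0 F n := by
  unfold Tv
  rw [dotProduct_smul, dot_e0, Pi.smul_apply, e0_zero, smul_smul, ← add_smul]
  congr 1
  simp only [smul_eq_mul]
  ring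

theorem Tv_sub (v v' s : Fin n → F) (h : v 0 = v' 0) :
    Tv v s - Tv v' s = (2 * (1 + v 0) * ((v - v') ⬝ᵥ s)) • e0 F n := by
  unfold Tv
  rw [← h, sub_dotProduct]
  funext i
  simp only [Pi.sub_apply, Pi.add_apply, Pi.smul_apply, smul_eq_mul]
  ring

/-- the conjugated weight -/
theorem cj_apply [Finite F] (v : Fin n → F) (hv0 : 1 + v 0 ≠ 0) (s : Fin n → F) :
    cj (As F n) (xv v hv0)⁻¹ (inv_mem (xv_mem_normalizer v hv0)) ⟨aS s, s, rfl⟩ =
      ⟨aS (Tv v s), Tv v s, rfl⟩ := by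
  apply Subtype.ext
  show (xv v hv0)⁻¹⁻¹ * aS s * (xv v hv0)⁻¹ = aS (Tv v s)
  rw [inv_inv, xv_conj, mul_inv_cancel_right]

end Cfsg.Agent.Lib.Helper14.WeightSp
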