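import Mathlib
import Cfsg.Agent.Lib.Helper14.WeightSp2

namespace Cfsg.Agent.Lib.Helper14.WeightSp

open Matrix Cfsg.Agent.Lib.Helper14.WeightSL Cfsg.Agent.Lib.Helper14.WeightBound

variable {F : Type*} [Field F]

theorem sp_bound [Fintype F] {K : Type*} [Field K] [IsAlgClosed K] {d : ℕ} (m : ℕ)
    (ρ : symplecticGroup (Fin (m + 1)) F →* GL (Fin d) K) (p : ℕ) [Fact p.Prime] [CharP F p]
    (h2 : (2 : F) ≠ 0) (hpK : (p : K) ≠ 0)
    (hnt : ∃ z : F, ρ (aS (z • e0 F (m + 1))) ≠ 1) :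
    Fintype.card F ^ m * (Fintype.card F - 1) ≤ 2 * d := by
  classical
  set Q := As F (m + 1) with hQ
  have hQc : ∀ x ∈ Q, ∀ y ∈ Q, x * y = y * x := fun x hx y hy => As_comm x y hx hy
  have hQp : ∀ x ∈ Q, x ^ p = 1 := fun x hx => As_pow p x hx
  have hind := indep_E ρ Q p hpK hQc hQp
  let _ : Fintype {χ : Q → K // E ρ Q χ ≠ ⊥} := hind.fintypeNeBotOfFiniteDimensional
  have hW : Fintype.card {χ : Q → K // E ρ Q χ ≠ ⊥} ≤ d := by
    have := hind.subtype_ne_bot_le_finrank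
    simpa using this
  -- a weight nontrivial on Z
  obtain ⟨χ₀, hχ₀, z₁, hz₁⟩ : ∃ χ₀ : Q → K, E ρ Q χ₀ ≠ ⊥ ∧
      ∃ z₁ : F, χ₀ ⟨aS (z₁ • e0 F (m + 1)), _, rfl⟩ ≠ 1 := by
    by_contra hcon
    push Not at hcon
    obtain ⟨z, hz⟩ := hnt
    apply hz
    rw [← T_eq_one_iff]
    apply LinearMap.ext
    intro v
    have hv : v ∈ (⨆ χ : Q → K, E ρ Q χ) := by rw [iSup_E ρ Q p hpK hQc hQp]; trivial
    refine Submodule.iSup_induction (fun χ => E ρ Q χ)
      (motive := fun v => T ρ (aS (z • e0 F (m + 1))) v = v) hv ?_ ?_ ?_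
    · intro χ w hw
      by_cases hb : E ρ Q χ = ⊥
      · rw [hb] at hw; rw [(Submodule.mem_bot K).mp hw]; simp
      · have h1 := hcon χ hb z
        rw [mem_E] at hw
        have := hw ⟨aS (z • e0 F (m + 1)), _, rfl⟩
        rw [h1, one_smul] at this; exact this
    · simp
    · intro a b ha hb; rw [map_add, ha, hb]
  obtain ⟨φ₀, hφ₀⟩ := exists_hom ρ Q χ₀ hχ₀
  -- additive character
  let ψ : (Fin (m + 1) → F) → Kˣ := fun s => φ₀ ⟨aS s, s, rfl⟩
  have hψadd : ∀ s t, ψ (s + t) = ψ s * ψ t := by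
    intro s t
    show φ₀ _ = φ₀ _ * φ₀ _
    rw [← map_mul]; congr 1; apply Subtype.ext; exact (aS_mul s t).symm
  have hψsub : ∀ s t, ψ s = ψ t → ψ (s - t) = 1 := by
    intro s t h
    have := hψadd (s - t) t
    rw [sub_add_cancel, h] at this
    exact mul_eq_right.mp this.symm
  have hψz : ψ (z₁ • e0 F (m + 1)) ≠ 1 := by
    intro h; apply hz₁; rw [← hφ₀]
    show ((ψ _ : Kˣ) : K) = 1
    rw [h]; rfl
  -- the family
  have hcons : ∀ (l : Fˣ) (u : Fin m → F),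
      1 + (Fin.cons ((l : F) - 1) u : Fin (m + 1) → F) 0 ≠ 0 := by
    intro l u; rw [Fin.cons_zero]; simp
  let f : Fˣ × (Fin m → F) → {χ : Q → K // E ρ Q χ ≠ ⊥} := fun x =>
    ⟨χ₀ ∘ cj Q (xv (Fin.cons ((x.1 : F) - 1) x.2) (hcons x.1 x.2))⁻¹
        (inv_mem (xv_mem_normalizer _ _)),
      E_conj ρ Q _ _ χ₀ hχ₀⟩
  have hf : ∀ (x : Fˣ × (Fin m → F)) (s : Fin (m + 1) → F),
      (f x).1 ⟨aS s, s, rfl⟩ = ((ψ (Tv (Fin.cons ((x.1 : F) - 1) x.2) s) : Kˣ) : K) := by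
    intro x s
    show χ₀ (cj Q _ _ ⟨aS s, s, rfl⟩) = _
    rw [cj_apply, ← hφ₀]
  -- consequences of equality
  have hkey1 : ∀ x y, f x = f y → (x.1 : F) ^ 2 = (y.1 : F) ^ 2 := by
    intro x y hxy
    by_contra hne
    apply hψz
    have hsub : ((x.1 : F) ^ 2 - (y.1 : F) ^ 2) ≠ 0 := sub_ne_zero.mpr hne
    have h1 : ψ (Tv (Fin.cons ((x.1 : F) - 1) x.2)
          ((z₁ / ((x.1 : F) ^ 2 - (y.1 : F) ^ 2)) • e0 F (m + 1))) =
        ψ (Tv (Fin.cons ((y.1 : F) - 1) y.2)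
          ((z₁ / ((x.1 : F) ^ 2 - (y.1 : F) ^ 2)) • e0 F (m + 1))) := by
      apply Units.ext
      rw [← hf, ← hf, hxy]
    have h3 := hψsub _ _ h1
    rw [Tv_e0, Tv_e0, ← sub_smul] at h3
    have h4 : (1 + (Fin.cons ((x.1 : F) - 1) x.2 : Fin (m + 1) → F) 0) ^ 2 *
        (z₁ / ((x.1 : F) ^ 2 - (y.1 : F) ^ 2)) -
        (1 + (Fin.cons ((y.1 : F) - 1) y.2 : Fin (m + 1) → F) 0) ^ 2 *
        (z₁ / ((x.1 : F) ^ 2 - (y.1 : F) ^ 2)) = z₁ := by
      simp only [Fin.cons_zero]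
      field_simp
      ring
    rw [h4] at h3
    exact h3
  have hkey2 : ∀ x y, f x = f y → x.1 = y.1 → x = y := by
    intro x y hxy h1
    have hv0 : (Fin.cons ((x.1 : F) - 1) x.2 : Fin (m + 1) → F) 0 =
        (Fin.cons ((y.1 : F) - 1) y.2 : Fin (m + 1) → F) 0 := by
      rw [Fin.cons_zero, Fin.cons_zero, h1]
    by_contra hne
    have hu : x.2 ≠ y.2 := fun h => hne (Prod.ext h1 h)
    obtain ⟨j, hj⟩ := Function.ne_iff.mp hu
    have hj' : x.2 j - y.2 j ≠ 0 := sub_ne_zero.mpr hj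
    apply hψz
    have h3 : ψ (Tv (Fin.cons ((x.1 : F) - 1) x.2)
          ((z₁ / (2 * (x.1 : F) * (x.2 j - y.2 j))) • Pi.single j.succ 1)) =
        ψ (Tv (Fin.cons ((y.1 : F) - 1) y.2)
          ((z₁ / (2 * (x.1 : F) * (x.2 j - y.2 j))) • Pi.single j.succ 1)) := by
      apply Units.ext
      rw [← hf, ← hf, hxy]
    have h4 := hψsub _ _ h3
    rw [Tv_sub _ _ _ hv0] at h4
    have h5 : 2 * (1 + (Fin.cons ((x.1 : F) - 1) x.2 : Fin (m + 1) → F) 0) *
        (((Fin.cons ((x.1 : F) - 1) x.2 : Fin (m + 1) → F) - Fin.cons ((y.1 : F) - 1) y.2) ⬝ᵥ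
          ((z₁ / (2 * (x.1 : F) * (x.2 j - y.2 j))) • Pi.single j.succ 1)) = z₁ := by
      rw [dotProduct_smul, dotProduct_single_one]
      simp only [Pi.sub_apply, Fin.cons_succ, Fin.cons_zero, smul_eq_mul]
      have hx0 : (x.1 : F) ≠ 0 := x.1.ne_zero
      field_simp
      ring
    rw [h5] at h4
    exact h4
  -- fibre bound
  have hfib : ∀ w ∈ (Finset.univ : Finset (Fˣ × (Fin m → F))).image f,
      (Finset.univ.filter (fun x => f x = w)).card ≤ 2 := by
    intro w hw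
    obtain ⟨x₁, -, rfl⟩ := Finset.mem_image.mp hw
    calc (Finset.univ.filter (fun x => f x = f x₁)).card
        ≤ ({x₁.1, -x₁.1} : Finset Fˣ).card := by
          refine Finset.card_le_card_of_injOn (fun x => x.1) ?_ ?_
          · intro x hx
            have hx' : f x = f x₁ := (Finset.mem_filter.mp hx).2
            have h6 := hkey1 x x₁ hx'
            rcases sq_eq_sq_iff_eq_or_eq_neg.mp h6 with h | h
            · have : x.1 = x₁.1 := Units.ext h
              simp [this]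
            · have : x.1 = -x₁.1 := Units.ext (by simpa using h)
              simp [this]
          · intro x hx y hy hxy
            have hx' : f x = f x₁ := (Finset.mem_filter.mp hx).2
            have hy' : f y = f x₁ := (Finset.mem_filter.mp hy).2
            exact hkey2 x y (hx'.trans hy'.symm) hxy
      _ ≤ 2 := Finset.card_le_two
  have hcard := Finset.card_le_mul_card_image (Finset.univ : Finset (Fˣ × (Fin m → F))) 2 hfib
  have hI : (Finset.univ : Finset (Fˣ × (Fin m → F))).card =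
      (Fintype.card F - 1) * Fintype.card F ^ m := by
    rw [Finset.card_univ, Fintype.card_prod, Fintype.card_units, Fintype.card_fun,
      Fintype.card_fin]
  calc Fintype.card F ^ m * (Fintype.card F - 1)
      = (Finset.univ : Finset (Fˣ × (Fin m → F))).card := by rw [hI, mul_comm]
    _ ≤ 2 * (Finset.univ.image f).card := hcard
    _ ≤ 2 * Fintype.card {χ : Q → K // E ρ Q χ ≠ ⊥} :=
        Nat.mul_le_mul_left 2 (Finset.card_le_univ _)
    _ ≤ 2 * d := Nat.mul_le_mul_left 2 hW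

end Cfsg.Agent.Lib.Helper14.WeightSp

namespace Cfsg.Agent.Lib.Helper14.WeightSp

open Matrix Cfsg.Agent.Lib.Helper14.WeightSL Cfsg.Agent.Lib.Helper14.WeightBound

theorem aS_not_center {F : Type*} [Field F] {n : ℕ} [NeZero n] :
    aS (e0 F n) ∉ Subgroup.center (symplecticGroup (Fin n) F) := by
  intro h
  rw [Subgroup.mem_center_iff] at h
  let b : symplecticGroup (Fin n) F := ⟨fromBlocks 1 0 (vecMulVec (e0 F n) (e0 F n)) 1, by
    rw [SymplecticGroup.fromBlocks_mem_iff]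
    simp [transpose_vecMulVec]⟩
  have h1 := congrArg Subtype.val (h b)
  change fromBlocks 1 0 (vecMulVec (e0 F n) (e0 F n)) 1 * fromBlocks 1 (Sm (e0 F n)) 0 1 =
    fromBlocks 1 (Sm (e0 F n)) 0 1 * fromBlocks 1 0 (vecMulVec (e0 F n) (e0 F n)) 1 at h1
  rw [fromBlocks_multiply, fromBlocks_multiply] at h1
  have h2 := (fromBlocks_inj.mp h1).1
  have h4 : Sm (e0 F n) *ᵥ e0 F n = e0 F n := by
    funext i
    have : Sm (e0 F n) *ᵥ e0 F n = fun i => Sm (e0 F n) i 0 := by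
      unfold e0
      rw [mulVec_single_one]
      rfl
    rw [this]
    exact Sm_apply_zero _ i
  rw [mul_vecMulVec, h4] at h2
  have h3 := congrFun (congrFun h2 0) 0
  simp [vecMulVec_apply, e0_zero] at h3

end Cfsg.Agent.Lib.Helper14.WeightSp
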